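import Mathlib
import Cfsg.Agent.Helper27.NS1
import Cfsg.Agent.Helper4.OSiegel1

set_option autoImplicit false
open Cfsg

namespace Cfsg.Agent.Helper13.NSm1

open Matrix Cfsg.Agent.Helper4.OrthPlane Cfsg.Agent.Helper4.CartanD Cfsg.Agent.Helper4.Dickson
  Cfsg.Agent.Helper4.OSiegel

variable {ι : Type} [Fintype ι] [DecidableEq ι] {F : Type*} [Field F]
variable (Q : (ι → F) → F)

theorem iso_B (hQ : Cfsg.Geo.IsNondegenerateQuadraticForm Q) (M : Matrix ι ι F)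
    (hM : ∀ v, Q (M *ᵥ v) = Q v) (u v : ι → F) :
    Bf Q hQ (M *ᵥ u) (M *ᵥ v) = Bf Q hQ u v := by
  rw [Bf_apply, Bf_apply]
  unfold QuadraticMap.polar
  rw [← Matrix.mulVec_add, hM, hM, hM]

theorem iso_B_fix (hQ : Cfsg.Geo.IsNondegenerateQuadraticForm Q) (M : Matrix ι ι F)
    (hM : ∀ v, Q (M *ᵥ v) = Q v) (a : ι → F) (ha : M *ᵥ a = a) (v : ι → F) :
    Bf Q hQ a (M *ᵥ v) = Bf Q hQ a v := by
  have h := iso_B Q hQ M hM a v
  rwa [ha] at h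

theorem pow_iso (M : Matrix ι ι F) (hM : ∀ v, Q (M *ᵥ v) = Q v) (n : ℕ) :
    ∀ v, Q ((M ^ n) *ᵥ v) = Q v := by
  induction n with
  | zero => intro v; rw [pow_zero, Matrix.one_mulVec]
  | succ n ih => intro v; rw [pow_succ, ← Matrix.mulVec_mulVec, ih, hM]

theorem pow_fix (M : Matrix ι ι F) (a : ι → F) (ha : M *ᵥ a = a) (n : ℕ) :
    (M ^ n) *ᵥ a = a := by
  induction n with
  | zero => rw [pow_zero, Matrix.one_mulVec]
  | succ n ih => rw [pow_succ, ← Matrix.mulVec_mulVec, ha, ih]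

/-- The averaging operator. -/
def Pm (A : Matrix ι ι F) (r : ℕ) : Matrix ι ι F := ∑ i ∈ Finset.range r, A ^ i

theorem A_mul_Pm (A : Matrix ι ι F) (r : ℕ) (hA : A ^ r = 1) : A * Pm A r = Pm A r := by
  have h := mul_geom_sum A r
  rw [hA, sub_self, sub_mul, one_mul, sub_eq_zero] at h
  exact h

theorem Pm_mul_A (A : Matrix ι ι F) (r : ℕ) (hA : A ^ r = 1) : Pm A r * A = Pm A r := by
  have h := geom_sum_mul A r
  rw [hA, sub_self, mul_sub, mul_one, sub_eq_zero] at h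
  exact h

theorem Pm_fix (A : Matrix ι ι F) (r : ℕ) (hr1 : (r : F) = 1) (a : ι → F) (ha : A *ᵥ a = a) :
    Pm A r *ᵥ a = a := by
  have h : ∀ n : ℕ, (∑ i ∈ Finset.range n, A ^ i) *ᵥ a = (n : F) • a := by
    intro n
    induction n with
    | zero => simp
    | succ n ih =>
      rw [Finset.sum_range_succ, Matrix.add_mulVec, ih, pow_fix A a ha, Nat.cast_succ, add_smul,
        one_smul]
  unfold Pm
  rw [h, hr1, one_smul]

theorem Pm_B (hQ : Cfsg.Geo.IsNondegenerateQuadraticForm Q) (A : Matrix ι ι F)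
    (hA : ∀ v, Q (A *ᵥ v) = Q v) (r : ℕ) (a : ι → F) (ha : A *ᵥ a = a) (v : ι → F) :
    Bf Q hQ a (Pm A r *ᵥ v) = (r : F) * Bf Q hQ a v := by
  have h : ∀ n : ℕ, Bf Q hQ a ((∑ i ∈ Finset.range n, A ^ i) *ᵥ v) = (n : F) * Bf Q hQ a v := by
    intro n
    induction n with
    | zero => simp
    | succ n ih =>
      rw [Finset.sum_range_succ, Matrix.add_mulVec, map_add, ih,
        iso_B_fix Q hQ (A ^ n) (pow_iso Q A hA n) a (pow_fix A a ha n), Nat.cast_succ]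
      ring
  exact h r

theorem perpK (hQ : Cfsg.Geo.IsNondegenerateQuadraticForm Q) (A : Matrix ι ι F)
    (hA : ∀ v, Q (A *ᵥ v) = Q v) (r : ℕ) (hr1 : (r : F) = 1) (a : ι → F) (ha : A *ᵥ a = a)
    (v : ι → F) (hv : Pm A r *ᵥ v = 0) : Bf Q hQ a v = 0 := by
  have h := Pm_B Q hQ A hA r a ha v
  rw [hv, map_zero, hr1, one_mul] at h
  exact h.symm

/-- The subgroup of isometries commuting with `x` and fixing the kernel of the averaging
operator pointwise. -/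
def G1 (x : GL ι F) (r : ℕ) : Subgroup (GL ι F) where
  carrier := {g | g ∈ Cfsg.isometryGroup F Q ∧ g * x = x * g ∧
    ∀ v, Pm (x : Matrix ι ι F) r *ᵥ v = 0 → (g : Matrix ι ι F) *ᵥ v = v}
  mul_mem' := by
    rintro a b ⟨ha1, ha2, ha3⟩ ⟨hb1, hb2, hb3⟩
    refine ⟨mul_mem ha1 hb1, ?_, fun v hv => ?_⟩
    · rw [mul_assoc, hb2, ← mul_assoc, ha2, mul_assoc]
    · rw [Units.val_mul, ← Matrix.mulVec_mulVec, hb3 v hv, ha3 v hv]
  one_mem' := ⟨one_mem _, by rw [one_mul, mul_one], fun v _ => by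
    rw [Units.val_one, Matrix.one_mulVec]⟩
  inv_mem' := by
    rintro a ⟨ha1, ha2, ha3⟩
    refine ⟨inv_mem ha1, ?_, fun v hv => ?_⟩
    · have h : a⁻¹ * x = a⁻¹ * (x * a) * a⁻¹ := by group
      rw [h, ← ha2]
      group
    · have h := ha3 v hv
      conv_lhs => rw [← h]
      rw [Matrix.mulVec_mulVec, ← Units.val_mul, inv_mul_cancel, Units.val_one,
        Matrix.one_mulVec]

theorem mem_G1 (x : GL ι F) (r : ℕ) (g : GL ι F) : g ∈ G1 Q x r ↔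
    (g ∈ Cfsg.isometryGroup F Q ∧ g * x = x * g ∧
    ∀ v, Pm (x : Matrix ι ι F) r *ᵥ v = 0 → (g : Matrix ι ι F) *ᵥ v = v) := Iff.rfl

theorem iso_apply (x : GL ι F) (hx : x ∈ Cfsg.isometryGroup F Q) (v : ι → F) :
    Q ((x : Matrix ι ι F) *ᵥ v) = Q v := hx v v


theorem refl_mem (hQ : Cfsg.Geo.IsNondegenerateQuadraticForm Q) (x : GL ι F)
    (hx : x ∈ Cfsg.isometryGroup F Q) (r : ℕ) (hr1 : (r : F) = 1) (w : ι → F) (hw : Q w ≠ 0)
    (hxw : (x : Matrix ι ι F) *ᵥ w = w) : rG Q hQ w hw ∈ G1 Q x r := by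
  refine ⟨rG_mem Q hQ w hw, ?_, fun v hv => ?_⟩
  · apply Units.ext
    rw [Units.val_mul, Units.val_mul]
    apply mat_ext
    intro v
    show (R Q hQ w * (x : Matrix ι ι F)) *ᵥ v = ((x : Matrix ι ι F) * R Q hQ w) *ᵥ v
    rw [← Matrix.mulVec_mulVec, ← Matrix.mulVec_mulVec, R_mulVec, R_mulVec,
      iso_B_fix Q hQ _ (iso_apply Q x hx) w hxw v, Matrix.mulVec_sub, Matrix.mulVec_smul, hxw]
  · show R Q hQ w *ᵥ v = v
    rw [R_mulVec, perpK Q hQ _ (iso_apply Q x hx) r hr1 w hxw v hv, mul_zero, zero_smul, sub_zero]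

theorem siegel_mem (hQ : Cfsg.Geo.IsNondegenerateQuadraticForm Q) (x : GL ι F)
    (hx : x ∈ Cfsg.isometryGroup F Q) (r : ℕ) (hr1 : (r : F) = 1) (w t : ι → F) (hw : Q w = 0)
    (hwt : Bf Q hQ w t = 0)
    (hxw : (x : Matrix ι ι F) *ᵥ w = w) (hxt : (x : Matrix ι ι F) *ᵥ t = t) :
    eG Q hQ w t hw hwt ∈ G1 Q x r := by
  refine ⟨eG_mem Q hQ w t hw hwt, ?_, fun v hv => ?_⟩
  · apply Units.ext
    rw [Units.val_mul, Units.val_mul]
    apply mat_ext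
    intro v
    show (Ev Q hQ w t * (x : Matrix ι ι F)) *ᵥ v = ((x : Matrix ι ι F) * Ev Q hQ w t) *ᵥ v
    rw [← Matrix.mulVec_mulVec, ← Matrix.mulVec_mulVec, Ev_mulVec, Ev_mulVec,
      iso_B_fix Q hQ _ (iso_apply Q x hx) w hxw v, iso_B_fix Q hQ _ (iso_apply Q x hx) t hxt v,
      Matrix.mulVec_sub, Matrix.mulVec_sub, Matrix.mulVec_add, Matrix.mulVec_smul,
      Matrix.mulVec_smul, Matrix.mulVec_smul, hxw, hxt]
  · show Ev Q hQ w t *ᵥ v = v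
    rw [Ev_mulVec, perpK Q hQ _ (iso_apply Q x hx) r hr1 w hxw v hv,
      perpK Q hQ _ (iso_apply Q x hx) r hr1 t hxt v hv, mul_zero, zero_smul, zero_smul,
      add_zero, sub_zero, sub_zero]

theorem nondegV1 (hQ : Cfsg.Geo.IsNondegenerateQuadraticForm Q) (x : GL ι F)
    (hx : x ∈ Cfsg.isometryGroup F Q) (r : ℕ) (hxr : (x : Matrix ι ι F) ^ r = 1)
    (hr1 : (r : F) = 1) (a : ι → F) (ha : (x : Matrix ι ι F) *ᵥ a = a) (ha0 : a ≠ 0) :
    ∃ s, (x : Matrix ι ι F) *ᵥ s = s ∧ Bf Q hQ a s ≠ 0 := by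
  obtain ⟨z, hz⟩ := (hQ.nondegenerate a ha0).2
  refine ⟨Pm (x : Matrix ι ι F) r *ᵥ z, ?_, ?_⟩
  · rw [Matrix.mulVec_mulVec, A_mul_Pm _ r hxr]
  · rw [Pm_B Q hQ _ (iso_apply Q x hx) r a ha z, hr1, one_mul]
    exact hz

theorem trans (hQ : Cfsg.Geo.IsNondegenerateQuadraticForm Q) (hch : (2 : F) = 0) (x : GL ι F)
    (hx : x ∈ Cfsg.isometryGroup F Q) (r : ℕ) (hxr : (x : Matrix ι ι F) ^ r = 1)
    (hr1 : (r : F) = 1) (u v : ι → F) (hu : Q u = 1) (hxu : (x : Matrix ι ι F) *ᵥ u = u)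
    (hv : Q v = 1) (hxv : (x : Matrix ι ι F) *ᵥ v = v) :
    ∃ g ∈ G1 Q x r, (g : Matrix ι ι F) *ᵥ u = v := by
  by_cases huv : u = v
  · exact ⟨1, one_mem _, by rw [Units.val_one, Matrix.one_mulVec, huv]⟩
  have h2 : ∀ z : ι → F, z + z = 0 := fun z => by rw [← two_smul F z, hch, zero_smul]
  have hBuu : Bf Q hQ u u = 0 := by rw [Bf_self, hch, zero_mul]
  have hQw : Q (u + v) = Bf Q hQ u v := by
    rw [Q_add Q hQ, hu, hv]
    linear_combination hch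
  have hxw : (x : Matrix ι ι F) *ᵥ (u + v) = u + v := by rw [Matrix.mulVec_add, hxu, hxv]
  have hBuw : Bf Q hQ u (u + v) = Bf Q hQ u v := by rw [map_add, hBuu, zero_add]
  by_cases hB : Bf Q hQ u v = 0
  · have hw0 : Q (u + v) = 0 := by rw [hQw, hB]
    have hwne : u + v ≠ 0 := by
      intro h
      apply huv
      have h3 : u = (u + v) + v := by rw [add_assoc, h2, add_zero]
      rw [h3, h, zero_add]
    obtain ⟨s, hxs, hs⟩ := nondegV1 Q hQ x hx r hxr hr1 (u + v) hxw hwne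
    obtain ⟨c, hc⟩ : ∃ c, c = Bf Q hQ u s * (Bf Q hQ (u + v) s)⁻¹ := ⟨_, rfl⟩
    have hQa : Q (u + (-c) • (u + v)) = 1 := by
      rw [Q_add_smul Q hQ, hw0, hBuw, hB, hu]
      ring
    have hane : u + (-c) • (u + v) ≠ 0 := by
      intro h
      rw [h, Q_zero Q hQ] at hQa
      exact zero_ne_one hQa
    have hxa : (x : Matrix ι ι F) *ᵥ (u + (-c) • (u + v)) = u + (-c) • (u + v) := by
      rw [Matrix.mulVec_add, Matrix.mulVec_smul, hxu, hxw]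
    obtain ⟨s₂, hxs₂, hs₂⟩ := nondegV1 Q hQ x hx r hxr hr1 _ hxa hane
    obtain ⟨t₀, ht₀⟩ : ∃ t₀, t₀ = s₂ - (Bf Q hQ (u + v) s₂ * (Bf Q hQ (u + v) s)⁻¹) • s :=
      ⟨_, rfl⟩
    have hwt₀ : Bf Q hQ (u + v) t₀ = 0 := by
      rw [ht₀, map_sub, map_smul, smul_eq_mul, mul_assoc, inv_mul_cancel₀ hs, mul_one, sub_self]
    have hut₀ : Bf Q hQ u t₀ = Bf Q hQ (u + (-c) • (u + v)) s₂ := by
      have e1 : Bf Q hQ u t₀ = Bf Q hQ u s₂
          - (Bf Q hQ (u + v) s₂ * (Bf Q hQ (u + v) s)⁻¹) * Bf Q hQ u s := by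
        rw [ht₀, map_sub, map_smul, smul_eq_mul]
      have e2 : Bf Q hQ (u + (-c) • (u + v)) s₂
          = Bf Q hQ u s₂ + (-c) * Bf Q hQ (u + v) s₂ := by
        rw [(Bf Q hQ).map_add u ((-c) • (u + v)), (Bf Q hQ).map_smul (-c) (u + v),
          LinearMap.add_apply, LinearMap.smul_apply, smul_eq_mul]
      rw [e1, e2, hc]
      ring
    have hut₀' : Bf Q hQ u t₀ ≠ 0 := by rw [hut₀]; exact hs₂
    have hxt₀ : (x : Matrix ι ι F) *ᵥ t₀ = t₀ := by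
      rw [ht₀, Matrix.mulVec_sub, Matrix.mulVec_smul, hxs₂, hxs]
    obtain ⟨t, ht⟩ : ∃ t, t = (Bf Q hQ u t₀)⁻¹ • t₀ := ⟨_, rfl⟩
    have hwt : Bf Q hQ (u + v) t = 0 := by rw [ht, map_smul, hwt₀, smul_zero]
    have htu : Bf Q hQ t u = 1 := by
      rw [Bf_symm Q hQ, ht, map_smul, smul_eq_mul, inv_mul_cancel₀ hut₀']
    have hxt : (x : Matrix ι ι F) *ᵥ t = t := by rw [ht, Matrix.mulVec_smul, hxt₀]
    refine ⟨eG Q hQ (u + v) t hw0 hwt, siegel_mem Q hQ x hx r hr1 (u + v) t hw0 hwt hxw hxt, ?_⟩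
    show Ev Q hQ (u + v) t *ᵥ u = v
    rw [Ev_mulVec, htu, Bf_symm Q hQ (u + v) u, hBuw, hB, mul_zero, zero_smul, zero_smul,
      one_smul, sub_zero, sub_zero, ← add_assoc, h2, zero_add]
  · have hw : Q (u + v) ≠ 0 := by rw [hQw]; exact hB
    refine ⟨rG Q hQ (u + v) hw, refl_mem Q hQ x hx r hr1 (u + v) hw hxw, ?_⟩
    show R Q hQ (u + v) *ᵥ u = v
    have hBwu : Bf Q hQ (u + v) u = Bf Q hQ u v := by rw [Bf_symm Q hQ, hBuw]
    rw [R_mulVec, hBwu, hQw, inv_mul_cancel₀ hB, one_smul, sub_add_eq_sub_sub, sub_self, zero_sub]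
    exact neg_eq_of_add_eq_zero_right (h2 v)


/-- Norm-one fixed vectors. -/
def S1 (x : GL ι F) : Type _ := {v : ι → F // Q v = 1 ∧ (x : Matrix ι ι F) *ᵥ v = v}

/-- The action of `G1` on the norm-one fixed vectors. -/
@[reducible] def actS (x : GL ι F) (r : ℕ) : MulAction ↥(G1 Q x r) (S1 Q x) where
  smul g s := ⟨((g : GL ι F) : Matrix ι ι F) *ᵥ s.1, by
      rw [iso_apply Q _ g.2.1]; exact s.2.1, by
      rw [Matrix.mulVec_mulVec, ← Units.val_mul, ← g.2.2.1, Units.val_mul,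
        ← Matrix.mulVec_mulVec, s.2.2]⟩
  one_smul s := Subtype.ext (by
      show ((1 : GL ι F) : Matrix ι ι F) *ᵥ s.1 = s.1
      rw [Units.val_one, Matrix.one_mulVec])
  mul_smul a b s := Subtype.ext (by
      show (((a : GL ι F) * (b : GL ι F) : GL ι F) : Matrix ι ι F) *ᵥ s.1
        = ((a : GL ι F) : Matrix ι ι F) *ᵥ (((b : GL ι F) : Matrix ι ι F) *ᵥ s.1)
      rw [Units.val_mul, Matrix.mulVec_mulVec])

theorem card_S1_dvd [Fintype F] (x : GL ι F) (hx : x ∈ Cfsg.isometryGroup F Q) (r : ℕ)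
    [Fact r.Prime] (hxr : (x : Matrix ι ι F) ^ r = 1)
    (hr : r ∣ Nat.card {v : ι → F // Q v = 1}) : r ∣ Nat.card (S1 Q x) := by
  classical
  let f : Function.End {v : ι → F // Q v = 1} := fun v =>
    ⟨(x : Matrix ι ι F) *ᵥ v.1, by rw [iso_apply Q x hx]; exact v.2⟩
  have hpow : ∀ (n : ℕ) (v : {v : ι → F // Q v = 1}),
      ((f ^ n) v).1 = ((x : Matrix ι ι F) ^ n) *ᵥ v.1 := by
    intro n
    induction n with
    | zero => intro v; rw [pow_zero, pow_zero, Matrix.one_mulVec]; rfl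
    | succ n ih =>
      intro v
      rw [pow_succ, pow_succ, ← Matrix.mulVec_mulVec]
      exact ih (f v)
  have hf : f ^ r ^ 1 = 1 := by
    rw [pow_one]
    funext v
    apply Subtype.ext
    rw [hpow, hxr, Matrix.one_mulVec]
    rfl
  have h1 := Equiv.Perm.card_fixedPoints_modEq (f := f) (p := r) (n := 1) hf
  have e : S1 Q x ≃ ↥(Function.fixedPoints f) :=
    { toFun := fun s => ⟨⟨s.1, s.2.1⟩, Subtype.ext s.2.2⟩
      invFun := fun t => ⟨t.1.1, t.1.2, congrArg Subtype.val t.2⟩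
      left_inv := fun s => rfl
      right_inv := fun t => rfl }
  rw [Nat.card_congr e, Nat.card_eq_fintype_card]
  rw [Nat.card_eq_fintype_card] at hr
  exact (Nat.ModEq.dvd_iff h1 (dvd_refl r)).mp hr

theorem dvd_card_G1 [Fintype F] (hQ : Cfsg.Geo.IsNondegenerateQuadraticForm Q)
    (hch : (2 : F) = 0) (x : GL ι F)
    (hx : x ∈ Cfsg.isometryGroup F Q) (r : ℕ) (hxr : (x : Matrix ι ι F) ^ r = 1)
    (hr1 : (r : F) = 1) (u : S1 Q x) : Nat.card (S1 Q x) ∣ Nat.card ↥(G1 Q x r) := by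
  letI := actS Q x r
  have horb : MulAction.orbit ↥(G1 Q x r) u = Set.univ := by
    ext v
    simp only [Set.mem_univ, iff_true]
    obtain ⟨g, hg, hgu⟩ := trans Q hQ hch x hx r hxr hr1 u.1 v.1 u.2.1 u.2.2 v.2.1 v.2.2
    exact ⟨⟨g, hg⟩, Subtype.ext hgu⟩
  have h1 := MulAction.index_stabilizer ↥(G1 Q x r) u
  rw [horb, Set.ncard_univ] at h1
  rw [← h1]
  exact Subgroup.index_dvd_card _

theorem fx_key (x : GL ι F) (r : ℕ) (hxr : (x : Matrix ι ι F) ^ r = 1)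
    (hr1 : (r : F) = 1) (y : GL ι F) (hy : y ∈ G1 Q x r) (v : ι → F)
    (hz : ((x : Matrix ι ι F) * (y : Matrix ι ι F)) *ᵥ v = v) :
    (x : Matrix ι ι F) *ᵥ v = v ∧ (y : Matrix ι ι F) *ᵥ v = v := by
  obtain ⟨v₁, hv₁⟩ : ∃ v₁, v₁ = Pm (x : Matrix ι ι F) r *ᵥ v := ⟨_, rfl⟩
  obtain ⟨c, hc⟩ : ∃ c, c = v - v₁ := ⟨_, rfl⟩
  have hvdec : v = v₁ + c := by rw [hc]; abel
  have hAv₁ : (x : Matrix ι ι F) *ᵥ v₁ = v₁ := by
    rw [hv₁, Matrix.mulVec_mulVec, A_mul_Pm _ r hxr]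
  have hPc : Pm (x : Matrix ι ι F) r *ᵥ c = 0 := by
    rw [hc, Matrix.mulVec_sub, Pm_fix _ r hr1 v₁ hAv₁, hv₁, sub_self]
  have hYc : (y : Matrix ι ι F) *ᵥ c = c := hy.2.2 c hPc
  have hcomm : (y : Matrix ι ι F) * (x : Matrix ι ι F) = (x : Matrix ι ι F) * (y : Matrix ι ι F) := by
    rw [← Units.val_mul, ← Units.val_mul, hy.2.1]
  have hYv₁ : (x : Matrix ι ι F) *ᵥ ((y : Matrix ι ι F) *ᵥ v₁) = (y : Matrix ι ι F) *ᵥ v₁ := by
    rw [Matrix.mulVec_mulVec, ← hcomm, ← Matrix.mulVec_mulVec, hAv₁]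
  have h1 : (y : Matrix ι ι F) *ᵥ v₁ + (x : Matrix ι ι F) *ᵥ c = v₁ + c := by
    have h := hz
    rw [hvdec, ← Matrix.mulVec_mulVec, Matrix.mulVec_add, Matrix.mulVec_add, hYc, hYv₁] at h
    exact h
  have h2 : (y : Matrix ι ι F) *ᵥ v₁ = v₁ := by
    have h : Pm (x : Matrix ι ι F) r *ᵥ ((y : Matrix ι ι F) *ᵥ v₁ + (x : Matrix ι ι F) *ᵥ c)
        = Pm (x : Matrix ι ι F) r *ᵥ (v₁ + c) :=
      congrArg (fun w => Pm (x : Matrix ι ι F) r *ᵥ w) h1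
    rw [Matrix.mulVec_add, Matrix.mulVec_add, Pm_fix _ r hr1 _ hYv₁, Matrix.mulVec_mulVec,
      Pm_mul_A _ r hxr, hPc, add_zero, Pm_fix _ r hr1 _ hAv₁, add_zero] at h
    exact h
  have h3 : (x : Matrix ι ι F) *ᵥ c = c := by
    rw [h2] at h1
    exact add_left_cancel h1
  have h4 : c = 0 := (Pm_fix _ r hr1 c h3).symm.trans hPc
  rw [hvdec, h4, add_zero]
  exact ⟨hAv₁, h2⟩

theorem fx_lt (x : GL ι F) (r : ℕ) (hxr : (x : Matrix ι ι F) ^ r = 1)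
    (hr1 : (r : F) = 1) (y : GL ι F) (hy : y ∈ G1 Q x r) (hy1 : y ≠ 1) :
    Fx ((x * y : GL ι F) : Matrix ι ι F) < Fx (x : Matrix ι ι F) := by
  have hle : Fx ((x * y : GL ι F) : Matrix ι ι F) ≤ Fx (x : Matrix ι ι F) := by
    intro v hv
    rw [mem_Fx] at hv ⊢
    rw [Units.val_mul] at hv
    exact (fx_key Q x r hxr hr1 y hy v hv).1
  refine lt_of_le_of_ne hle (fun heq => hy1 ?_)
  apply Units.ext
  apply mat_ext
  intro v
  rw [Units.val_one, Matrix.one_mulVec]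
  obtain ⟨v₁, hv₁⟩ : ∃ v₁, v₁ = Pm (x : Matrix ι ι F) r *ᵥ v := ⟨_, rfl⟩
  obtain ⟨c, hc⟩ : ∃ c, c = v - v₁ := ⟨_, rfl⟩
  have hvdec : v = v₁ + c := by rw [hc]; abel
  have hAv₁ : (x : Matrix ι ι F) *ᵥ v₁ = v₁ := by
    rw [hv₁, Matrix.mulVec_mulVec, A_mul_Pm _ r hxr]
  have hPc : Pm (x : Matrix ι ι F) r *ᵥ c = 0 := by
    rw [hc, Matrix.mulVec_sub, Pm_fix _ r hr1 v₁ hAv₁, hv₁, sub_self]
  have hYc : (y : Matrix ι ι F) *ᵥ c = c := hy.2.2 c hPc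
  have hmem : v₁ ∈ Fx ((x * y : GL ι F) : Matrix ι ι F) := by
    rw [heq, mem_Fx]
    exact hAv₁
  rw [mem_Fx, Units.val_mul] at hmem
  have hYv₁ := (fx_key Q x r hxr hr1 y hy v₁ hmem).2
  rw [hvdec, Matrix.mulVec_add, hYv₁, hYc]

theorem exists_no_fix [Fintype F] (hQ : Cfsg.Geo.IsNondegenerateQuadraticForm Q)
    (hch : (2 : F) = 0) (r : ℕ) [Fact r.Prime] (hr2 : r ≠ 2)
    (hr : r ∣ Nat.card {v : ι → F // Q v = 1}) :
    ∃ x ∈ Cfsg.isometryGroup F Q, x ^ r = 1 ∧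
      ∀ v, Q v = 1 → (x : Matrix ι ι F) *ᵥ v ≠ v := by
  have hr1 : (r : F) = 1 := by
    obtain ⟨k, hk⟩ := (Nat.Prime.odd_of_ne_two Fact.out hr2 : Odd r)
    rw [hk, Nat.cast_add, Nat.cast_mul, Nat.cast_two, hch, zero_mul, zero_add, Nat.cast_one]
  obtain ⟨x, ⟨hxO, hxr⟩, hmin⟩ := Set.exists_min_image
    {x : GL ι F | x ∈ Cfsg.isometryGroup F Q ∧ x ^ r = 1}
    (fun x => Module.finrank F (Fx (x : Matrix ι ι F))) (Set.toFinite _)
    ⟨1, one_mem _, one_pow _⟩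
  refine ⟨x, hxO, hxr, ?_⟩
  by_contra hcon
  push_neg at hcon
  obtain ⟨u, hu1, hufix⟩ := hcon
  have hxr' : (x : Matrix ι ι F) ^ r = 1 := by
    rw [← Units.val_pow_eq_pow_val, hxr, Units.val_one]
  have hd1 := card_S1_dvd Q x hxO r hxr' hr
  have hd2 := dvd_card_G1 Q hQ hch x hxO r hxr' hr1 ⟨u, hu1, hufix⟩
  have hd3 : r ∣ Nat.card ↥(G1 Q x r) := hd1.trans hd2
  obtain ⟨y, hy⟩ := exists_prime_orderOf_dvd_card' r hd3
  have hyr : y ^ r = 1 := by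
    have h := pow_orderOf_eq_one y
    rwa [hy] at h
  have hy1 : y ≠ 1 := by
    intro h
    rw [h, orderOf_one] at hy
    exact (Fact.out : r.Prime).ne_one hy.symm
  have hlt := fx_lt Q x r hxr' hr1 (y : GL ι F) y.2 (fun h => hy1 (Subtype.ext h))
  have hzO : x * (y : GL ι F) ∈ Cfsg.isometryGroup F Q := mul_mem hxO y.2.1
  have hcomm : Commute x (y : GL ι F) := y.2.2.1.symm
  have hzr : (x * (y : GL ι F)) ^ r = 1 := by
    rw [hcomm.mul_pow, hxr, one_mul, ← Subgroup.coe_pow, hyr, Subgroup.coe_one]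
  have h5 := hmin (x * y) ⟨hzO, hzr⟩
  exact absurd (Submodule.finrank_lt_finrank_of_lt hlt) (not_lt.mpr h5)

end Cfsg.Agent.Helper13.NSm1
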