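import Mathlib
import Cfsg.Prelude.Def_GeometricClasses
import Cfsg.Prelude.Def_ClassicalGeometry
import Cfsg.Agent.Helper13.NSm1

set_option autoImplicit false
open Cfsg

namespace Cfsg.Agent.Helper13.SpQ7

open Matrix Cfsg.Agent.Helper4.OrthPlane Cfsg.Agent.Helper4.CartanD Cfsg.Agent.Helper13.NSm1

section gen

variable {ι : Type} [Fintype ι] [DecidableEq ι] {F : Type*} [Field F]

theorem inv_mulVec (g : GL ι F) (v : ι → F) :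
    ((g⁻¹ : GL ι F) : Matrix ι ι F) *ᵥ ((g : Matrix ι ι F) *ᵥ v) = v := by
  rw [Matrix.mulVec_mulVec, ← Units.val_mul, inv_mul_cancel, Units.val_one, Matrix.one_mulVec]

theorem mulVec_inv (g : GL ι F) (v : ι → F) :
    (g : Matrix ι ι F) *ᵥ (((g⁻¹ : GL ι F) : Matrix ι ι F) *ᵥ v) = v := by
  rw [Matrix.mulVec_mulVec, ← Units.val_mul, mul_inv_cancel, Units.val_one, Matrix.one_mulVec]

/-- Elements of `O` commuting with `x` and fixing the kernel of the averaging operator. -/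
def GC (O : Subgroup (GL ι F)) (x : GL ι F) (r : ℕ) : Subgroup (GL ι F) where
  carrier := {g | g ∈ O ∧ g * x = x * g ∧
    ∀ v, Pm (x : Matrix ι ι F) r *ᵥ v = 0 → (g : Matrix ι ι F) *ᵥ v = v}
  mul_mem' := by
    rintro a b ⟨ha1, ha2, ha3⟩ ⟨hb1, hb2, hb3⟩
    refine ⟨mul_mem ha1 hb1, ?_, fun v hv => ?_⟩
    · rw [mul_assoc, hb2, ← mul_assoc, ha2, mul_assoc]
    · rw [Units.val_mul, ← Matrix.mulVec_mulVec, hb3 v hv, ha3 v hv]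
  one_mem' := ⟨one_mem _, by rw [one_mul, mul_one], fun v _ => by
    rw [Units.val_one, Matrix.one_mulVec]⟩
  inv_mem' := by
    rintro a ⟨ha1, ha2, ha3⟩
    refine ⟨inv_mem ha1, ?_, fun v hv => ?_⟩
    · have h : a⁻¹ * x = a⁻¹ * (x * a) * a⁻¹ := by group
      rw [h, ← ha2]
      group
    · have h := ha3 v hv
      conv_lhs => rw [← h]
      exact inv_mulVec a v

theorem fx_key' (O : Subgroup (GL ι F)) (x : GL ι F) (r : ℕ) (hxr : (x : Matrix ι ι F) ^ r = 1)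
    (hr1 : (r : F) = 1) (y : GL ι F) (hy : y ∈ GC O x r) (v : ι → F)
    (hz : ((x : Matrix ι ι F) * (y : Matrix ι ι F)) *ᵥ v = v) :
    (x : Matrix ι ι F) *ᵥ v = v ∧ (y : Matrix ι ι F) *ᵥ v = v := by
  obtain ⟨v₁, hv₁⟩ : ∃ v₁, v₁ = Pm (x : Matrix ι ι F) r *ᵥ v := ⟨_, rfl⟩
  obtain ⟨c, hc⟩ : ∃ c, c = v - v₁ := ⟨_, rfl⟩
  have hvdec : v = v₁ + c := by rw [hc]; abel
  have hAv₁ : (x : Matrix ι ι F) *ᵥ v₁ = v₁ := by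
    rw [hv₁, Matrix.mulVec_mulVec, A_mul_Pm _ r hxr]
  have hPc : Pm (x : Matrix ι ι F) r *ᵥ c = 0 := by
    rw [hc, Matrix.mulVec_sub, Pm_fix _ r hr1 v₁ hAv₁, hv₁, sub_self]
  have hYc : (y : Matrix ι ι F) *ᵥ c = c := hy.2.2 c hPc
  have hcomm : (y : Matrix ι ι F) * (x : Matrix ι ι F) = (x : Matrix ι ι F) * (y : Matrix ι ι F) := by
    rw [← Units.val_mul, ← Units.val_mul, hy.2.1]
  have hYv₁ : (x : Matrix ι ι F) *ᵥ ((y : Matrix ι ι F) *ᵥ v₁) = (y : Matrix ι ι F) *ᵥ v₁ := by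
    rw [Matrix.mulVec_mulVec, ← hcomm, ← Matrix.mulVec_mulVec, hAv₁]
  have h1 : (y : Matrix ι ι F) *ᵥ v₁ + (x : Matrix ι ι F) *ᵥ c = v₁ + c := by
    have h := hz
    rw [hvdec, ← Matrix.mulVec_mulVec, Matrix.mulVec_add, Matrix.mulVec_add, hYc, hYv₁] at h
    exact h
  have h2 : (y : Matrix ι ι F) *ᵥ v₁ = v₁ := by
    have h : Pm (x : Matrix ι ι F) r *ᵥ ((y : Matrix ι ι F) *ᵥ v₁ + (x : Matrix ι ι F) *ᵥ c)
        = Pm (x : Matrix ι ι F) r *ᵥ (v₁ + c) :=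
      congrArg (fun w => Pm (x : Matrix ι ι F) r *ᵥ w) h1
    rw [Matrix.mulVec_add, Matrix.mulVec_add, Pm_fix _ r hr1 _ hYv₁, Matrix.mulVec_mulVec,
      Pm_mul_A _ r hxr, hPc, add_zero, Pm_fix _ r hr1 _ hAv₁, add_zero] at h
    exact h
  have h3 : (x : Matrix ι ι F) *ᵥ c = c := by
    rw [h2] at h1
    exact add_left_cancel h1
  have h4 : c = 0 := (Pm_fix _ r hr1 c h3).symm.trans hPc
  rw [hvdec, h4, add_zero]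
  exact ⟨hAv₁, h2⟩

theorem fx_lt' (O : Subgroup (GL ι F)) (x : GL ι F) (r : ℕ) (hxr : (x : Matrix ι ι F) ^ r = 1)
    (hr1 : (r : F) = 1) (y : GL ι F) (hy : y ∈ GC O x r) (hy1 : y ≠ 1) :
    Fx ((x * y : GL ι F) : Matrix ι ι F) < Fx (x : Matrix ι ι F) := by
  have hle : Fx ((x * y : GL ι F) : Matrix ι ι F) ≤ Fx (x : Matrix ι ι F) := by
    intro v hv
    rw [mem_Fx] at hv ⊢
    rw [Units.val_mul] at hv
    exact (fx_key' O x r hxr hr1 y hy v hv).1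
  refine lt_of_le_of_ne hle (fun heq => hy1 ?_)
  apply Units.ext
  apply mat_ext
  intro v
  rw [Units.val_one, Matrix.one_mulVec]
  obtain ⟨v₁, hv₁⟩ : ∃ v₁, v₁ = Pm (x : Matrix ι ι F) r *ᵥ v := ⟨_, rfl⟩
  obtain ⟨c, hc⟩ : ∃ c, c = v - v₁ := ⟨_, rfl⟩
  have hvdec : v = v₁ + c := by rw [hc]; abel
  have hAv₁ : (x : Matrix ι ι F) *ᵥ v₁ = v₁ := by
    rw [hv₁, Matrix.mulVec_mulVec, A_mul_Pm _ r hxr]
  have hPc : Pm (x : Matrix ι ι F) r *ᵥ c = 0 := by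
    rw [hc, Matrix.mulVec_sub, Pm_fix _ r hr1 v₁ hAv₁, hv₁, sub_self]
  have hYc : (y : Matrix ι ι F) *ᵥ c = c := hy.2.2 c hPc
  have hmem : v₁ ∈ Fx ((x * y : GL ι F) : Matrix ι ι F) := by
    rw [heq, mem_Fx]
    exact hAv₁
  rw [mem_Fx, Units.val_mul] at hmem
  have hYv₁ := (fx_key' O x r hxr hr1 y hy v₁ hmem).2
  rw [hvdec, Matrix.mulVec_add, hYv₁, hYc]

/-- The abstract counting step: a subgroup `K₁` centralising `x` and transitive on the fixed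
points of `x` in a set of size divisible by `r` has order divisible by `r`, unless `x` has no
fixed point. -/
theorem dvd_card_of_trans {G : Type*} [Group G] [Finite G] {X : Type*} [Finite X] [MulAction G X]
    (r : ℕ) [Fact r.Prime] (hr : r ∣ Nat.card X) (x : G) (hxr : x ^ r = 1)
    (K₁ : Subgroup G) (hcomm : ∀ k ∈ K₁, k * x = x * k)
    (htr : ∀ c₁ c₂ : X, x • c₁ = c₁ → x • c₂ = c₂ → ∃ k ∈ K₁, k • c₁ = c₂)
    (c₀ : X) (hc₀ : x • c₀ = c₀) : r ∣ Nat.card K₁ := by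
  classical
  haveI := Fintype.ofFinite X
  let f : Function.End X := fun c => x • c
  have hpow : ∀ (n : ℕ) (c : X), (f ^ n) c = x ^ n • c := by
    intro n
    induction n with
    | zero => intro c; rw [pow_zero, pow_zero, one_smul]; rfl
    | succ n ih =>
      intro c
      rw [pow_succ, pow_succ, mul_smul]
      exact ih (f c)
  have hf : f ^ r ^ 1 = 1 := by
    rw [pow_one]
    funext c
    rw [hpow, hxr, one_smul]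
    rfl
  have h1 := Equiv.Perm.card_fixedPoints_modEq (f := f) (p := r) (n := 1) hf
  have h2 : r ∣ Fintype.card ↥(Function.fixedPoints f) := by
    rw [Nat.card_eq_fintype_card] at hr
    exact (Nat.ModEq.dvd_iff h1 (dvd_refl r)).mp hr
  have horb : MulAction.orbit ↥K₁ c₀ = Function.fixedPoints f := by
    ext c
    constructor
    · rintro ⟨k, rfl⟩
      show x • ((k : G) • c₀) = (k : G) • c₀
      rw [← mul_smul, ← hcomm k k.2, mul_smul, hc₀]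
    · intro hc
      obtain ⟨k, hk, hkc⟩ := htr c₀ c hc₀ hc
      exact ⟨⟨k, hk⟩, hkc⟩
  have h3 := MulAction.index_stabilizer ↥K₁ c₀
  rw [horb] at h3
  have h4 : (Function.fixedPoints f).ncard = Fintype.card ↥(Function.fixedPoints f) := by
    rw [← Nat.card_coe_set_eq, Nat.card_eq_fintype_card]
  rw [h4] at h3
  rw [← h3] at h2
  exact h2.trans (Subgroup.index_dvd_card _)

end gen


section sp

variable {F : Type*} [Field F] {d : ℕ}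

theorem gmv {ι : Type} [Fintype ι] [DecidableEq ι] (p q : GL ι F) (v : ι → F) :
    ((p * q : GL ι F) : Matrix ι ι F) *ᵥ v = (p : Matrix ι ι F) *ᵥ ((q : Matrix ι ι F) *ᵥ v) := by
  rw [Units.val_mul, Matrix.mulVec_mulVec]

theorem mem_sp (g : GL (Fin d ⊕ Fin d) F) : g ∈ Cfsg.spGL d F ↔
    ∀ u v, Cfsg.sympForm d F ((g : Matrix (Fin d ⊕ Fin d) (Fin d ⊕ Fin d) F) *ᵥ u)
      ((g : Matrix (Fin d ⊕ Fin d) (Fin d ⊕ Fin d) F) *ᵥ v) = Cfsg.sympForm d F u v := Iff.rfl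

theorem sf_add_left (u u' v : Fin d ⊕ Fin d → F) :
    Cfsg.sympForm d F (u + u') v = Cfsg.sympForm d F u v + Cfsg.sympForm d F u' v := by
  unfold Cfsg.sympForm
  rw [add_dotProduct]

theorem sf_sub_left (u u' v : Fin d ⊕ Fin d → F) :
    Cfsg.sympForm d F (u - u') v = Cfsg.sympForm d F u v - Cfsg.sympForm d F u' v := by
  unfold Cfsg.sympForm
  rw [sub_dotProduct]

theorem sf_zero_left (v : Fin d ⊕ Fin d → F) : Cfsg.sympForm d F 0 v = 0 := by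
  unfold Cfsg.sympForm
  rw [zero_dotProduct]

theorem sf_pow_fix (x : GL (Fin d ⊕ Fin d) F) (hx : x ∈ Cfsg.spGL d F) (b : Fin d ⊕ Fin d → F)
    (hb : (x : Matrix (Fin d ⊕ Fin d) (Fin d ⊕ Fin d) F) *ᵥ b = b) (n : ℕ) :
    ∀ v, Cfsg.sympForm d F (((x : Matrix (Fin d ⊕ Fin d) (Fin d ⊕ Fin d) F) ^ n) *ᵥ v) b
      = Cfsg.sympForm d F v b := by
  induction n with
  | zero => intro v; rw [pow_zero, Matrix.one_mulVec]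
  | succ n ih =>
    intro v
    rw [pow_succ, ← Matrix.mulVec_mulVec, ih]
    have h := (mem_sp x).mp hx v b
    rw [hb] at h
    exact h

theorem sf_Pm (x : GL (Fin d ⊕ Fin d) F) (hx : x ∈ Cfsg.spGL d F) (b : Fin d ⊕ Fin d → F)
    (hb : (x : Matrix (Fin d ⊕ Fin d) (Fin d ⊕ Fin d) F) *ᵥ b = b) (r : ℕ)
    (v : Fin d ⊕ Fin d → F) :
    Cfsg.sympForm d F (Pm (x : Matrix (Fin d ⊕ Fin d) (Fin d ⊕ Fin d) F) r *ᵥ v) b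
      = (r : F) * Cfsg.sympForm d F v b := by
  have h : ∀ n : ℕ, Cfsg.sympForm d F
      ((∑ i ∈ Finset.range n, (x : Matrix (Fin d ⊕ Fin d) (Fin d ⊕ Fin d) F) ^ i) *ᵥ v) b
      = (n : F) * Cfsg.sympForm d F v b := by
    intro n
    induction n with
    | zero => simp [sf_zero_left]
    | succ n ih =>
      rw [Finset.sum_range_succ, Matrix.add_mulVec, sf_add_left, ih, sf_pow_fix x hx b hb n,
        Nat.cast_succ]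
      ring
  exact h r

theorem sf_perp (x : GL (Fin d ⊕ Fin d) F) (hx : x ∈ Cfsg.spGL d F) (r : ℕ) (hr1 : (r : F) = 1)
    (b : Fin d ⊕ Fin d → F)
    (hb : (x : Matrix (Fin d ⊕ Fin d) (Fin d ⊕ Fin d) F) *ᵥ b = b)
    (v : Fin d ⊕ Fin d → F)
    (hv : Pm (x : Matrix (Fin d ⊕ Fin d) (Fin d ⊕ Fin d) F) r *ᵥ v = 0) :
    Cfsg.sympForm d F v b = 0 := by
  have h := sf_Pm x hx b hb r v
  rw [hv, sf_zero_left, hr1, one_mul] at h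
  exact h.symm

/-- A symplectic similarity of a form polarising to the symplectic form is an isometry. -/
theorem sim_iso (hd : 0 < d)
    (hnd : ∀ a : Fin d ⊕ Fin d → F, (∀ v, Cfsg.sympForm d F a v = 0) → a = 0)
    (Q : (Fin d ⊕ Fin d → F) → F)
    (hpol : ∀ u v : Fin d ⊕ Fin d → F, Q (u + v) = Q u + Q v + Cfsg.sympForm d F u v)
    (h : GL (Fin d ⊕ Fin d) F) (hh : h ∈ Cfsg.spGL d F)
    (hH : h ∈ Cfsg.Geo.quadSimilarityGroup Q) :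
    ∀ v, Q ((h : Matrix (Fin d ⊕ Fin d) (Fin d ⊕ Fin d) F) *ᵥ v) = Q v := by
  obtain ⟨c, hc⟩ := hH
  have key : ∀ u v, (c : F) * Cfsg.sympForm d F u v = Cfsg.sympForm d F u v := by
    intro u v
    have h1 := hpol ((h : Matrix (Fin d ⊕ Fin d) (Fin d ⊕ Fin d) F) *ᵥ u)
      ((h : Matrix (Fin d ⊕ Fin d) (Fin d ⊕ Fin d) F) *ᵥ v)
    rw [← Matrix.mulVec_add, hc, hc, hc, hpol u v, (mem_sp h).mp hh u v] at h1
    linear_combination h1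
  have hne : (Pi.single (Sum.inl ⟨0, hd⟩) 1 : Fin d ⊕ Fin d → F) ≠ 0 := by
    intro h0
    have h1 := congrFun h0 (Sum.inl ⟨0, hd⟩)
    rw [Pi.single_eq_same] at h1
    exact one_ne_zero h1
  have hex : ∃ v, Cfsg.sympForm d F (Pi.single (Sum.inl ⟨0, hd⟩) 1) v ≠ 0 := by
    by_contra hcon
    push_neg at hcon
    exact hne (hnd _ hcon)
  obtain ⟨v₀, hv₀⟩ := hex
  have hc1 : (c : F) = 1 := by
    have h1 := key (Pi.single (Sum.inl ⟨0, hd⟩) 1) v₀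
    have h2 : ((c : F) - 1) * Cfsg.sympForm d F (Pi.single (Sum.inl ⟨0, hd⟩) 1) v₀ = 0 := by
      linear_combination h1
    rcases mul_eq_zero.mp h2 with h3 | h3
    · exact sub_eq_zero.mp h3
    · exact absurd h3 hv₀
  intro v
  rw [hc, hc1, one_mul]

end sp


section main

variable {F : Type*} [Field F] [Fintype F] {d : ℕ}

theorem sq_inj' (hch : (2 : F) = 0) (s t : F) (h : s ^ 2 = t ^ 2) : s = t := by
  have h1 : (s - t) ^ 2 = 0 := by linear_combination h + (t ^ 2 - s * t) * hch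
  exact sub_eq_zero.mp ((pow_eq_zero_iff (two_ne_zero)).mp h1)

/-- Transitivity of the centraliser on the fixed cosets. -/
theorem trans_cosets (hch : (2 : F) = 0) (hd : 0 < d)
    (hL2 : ∀ (Q₁ Q₂ : (Fin d ⊕ Fin d → F) → F),
      (∀ (c : F) (v : Fin d ⊕ Fin d → F), Q₁ (c • v) = c ^ 2 * Q₁ v) →
      (∀ u v : Fin d ⊕ Fin d → F, Q₁ (u + v) = Q₁ u + Q₁ v + Cfsg.sympForm d F u v) →
      (∀ (c : F) (v : Fin d ⊕ Fin d → F), Q₂ (c • v) = c ^ 2 * Q₂ v) →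
      (∀ u v : Fin d ⊕ Fin d → F, Q₂ (u + v) = Q₂ u + Q₂ v + Cfsg.sympForm d F u v) →
      ∃ b : Fin d ⊕ Fin d → F, ∀ v, Q₂ v = Q₁ v + (Cfsg.sympForm d F b v) ^ 2)
    (hnd : ∀ a : Fin d ⊕ Fin d → F, (∀ v, Cfsg.sympForm d F a v = 0) → a = 0)
    (hL3 : ∀ (Q : (Fin d ⊕ Fin d → F) → F),
      (∀ (c : F) (v : Fin d ⊕ Fin d → F), Q (c • v) = c ^ 2 * Q v) →
      (∀ u v : Fin d ⊕ Fin d → F, Q (u + v) = Q u + Q v + Cfsg.sympForm d F u v) →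
      ∀ b : Fin d ⊕ Fin d → F, (∃ w : F, w ^ 2 + w = Q b) →
      ∃ (g : GL (Fin d ⊕ Fin d) F) (c : F), g ∈ Cfsg.spGL d F ∧
        (∀ v, (g : Matrix (Fin d ⊕ Fin d) (Fin d ⊕ Fin d) F) *ᵥ v
          = v + (c * Cfsg.sympForm d F v b) • b) ∧
        ∀ v, Q ((g : Matrix (Fin d ⊕ Fin d) (Fin d ⊕ Fin d) F) *ᵥ v)
          = Q v + (Cfsg.sympForm d F b v) ^ 2)
    (hL5 : ∀ (Q : (Fin d ⊕ Fin d → F) → F),
      (∀ (c : F) (v : Fin d ⊕ Fin d → F), Q (c • v) = c ^ 2 * Q v) →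
      (∀ u v : Fin d ⊕ Fin d → F, Q (u + v) = Q u + Q v + Cfsg.sympForm d F u v) →
      ∀ h : GL (Fin d ⊕ Fin d) F, h ∈ Cfsg.spGL d F → ∀ b : Fin d ⊕ Fin d → F,
      (∀ v, Q ((h : Matrix (Fin d ⊕ Fin d) (Fin d ⊕ Fin d) F) *ᵥ v)
        = Q v + (Cfsg.sympForm d F b v) ^ 2) → ∃ w : F, w ^ 2 + w = Q b)
    (Q : (Fin d ⊕ Fin d → F) → F)
    (hsm : ∀ (c : F) (v : Fin d ⊕ Fin d → F), Q (c • v) = c ^ 2 * Q v)
    (hpol : ∀ u v : Fin d ⊕ Fin d → F, Q (u + v) = Q u + Q v + Cfsg.sympForm d F u v)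
    (r : ℕ) (hr1 : (r : F) = 1) (x : GL (Fin d ⊕ Fin d) F) (hx : x ∈ Cfsg.spGL d F)
    (a₁ a₂ : GL (Fin d ⊕ Fin d) F) (ha₁ : a₁ ∈ Cfsg.spGL d F) (ha₂ : a₂ ∈ Cfsg.spGL d F)
    (h₁ : a₁⁻¹ * x⁻¹ * a₁ ∈ Cfsg.Geo.quadSimilarityGroup Q)
    (h₂ : a₂⁻¹ * x⁻¹ * a₂ ∈ Cfsg.Geo.quadSimilarityGroup Q) :
    ∃ t ∈ GC (Cfsg.spGL d F) x r, a₁⁻¹ * t⁻¹ * a₂ ∈ Cfsg.Geo.quadSimilarityGroup Q := by
  have hxi : x⁻¹ ∈ Cfsg.spGL d F := inv_mem hx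
  have ha₁i : a₁⁻¹ ∈ Cfsg.spGL d F := inv_mem ha₁
  have ha₂i : a₂⁻¹ ∈ Cfsg.spGL d F := inv_mem ha₂
  have I₁ := sim_iso hd hnd Q hpol _ (mul_mem (mul_mem ha₁i hxi) ha₁) h₁
  have I₂ := sim_iso hd hnd Q hpol _ (mul_mem (mul_mem ha₂i hxi) ha₂) h₂
  -- the two invariant forms
  have hsm' : ∀ a : GL (Fin d ⊕ Fin d) F, ∀ (c : F) (v : Fin d ⊕ Fin d → F),
      Q ((a : Matrix (Fin d ⊕ Fin d) (Fin d ⊕ Fin d) F) *ᵥ (c • v))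
        = c ^ 2 * Q ((a : Matrix (Fin d ⊕ Fin d) (Fin d ⊕ Fin d) F) *ᵥ v) := by
    intro a c v
    rw [Matrix.mulVec_smul, hsm]
  have hpol' : ∀ a : GL (Fin d ⊕ Fin d) F, a ∈ Cfsg.spGL d F → ∀ u v : Fin d ⊕ Fin d → F,
      Q ((a : Matrix (Fin d ⊕ Fin d) (Fin d ⊕ Fin d) F) *ᵥ (u + v))
        = Q ((a : Matrix (Fin d ⊕ Fin d) (Fin d ⊕ Fin d) F) *ᵥ u)
          + Q ((a : Matrix (Fin d ⊕ Fin d) (Fin d ⊕ Fin d) F) *ᵥ v)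
          + Cfsg.sympForm d F u v := by
    intro a ha u v
    rw [Matrix.mulVec_add, hpol, (mem_sp a).mp ha u v]
  have hinv : ∀ a : GL (Fin d ⊕ Fin d) F,
      (∀ w, Q (((a⁻¹ * x⁻¹ * a : GL (Fin d ⊕ Fin d) F) :
        Matrix (Fin d ⊕ Fin d) (Fin d ⊕ Fin d) F) *ᵥ w) = Q w) →
      ∀ v, Q (((a⁻¹ : GL (Fin d ⊕ Fin d) F) : Matrix (Fin d ⊕ Fin d) (Fin d ⊕ Fin d) F) *ᵥ
        ((x : Matrix (Fin d ⊕ Fin d) (Fin d ⊕ Fin d) F) *ᵥ v))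
        = Q (((a⁻¹ : GL (Fin d ⊕ Fin d) F) : Matrix (Fin d ⊕ Fin d) (Fin d ⊕ Fin d) F) *ᵥ v) := by
    intro a hI v
    have h := hI (((a⁻¹ * x : GL (Fin d ⊕ Fin d) F) :
      Matrix (Fin d ⊕ Fin d) (Fin d ⊕ Fin d) F) *ᵥ v)
    rw [← gmv] at h
    have e : a⁻¹ * x⁻¹ * a * (a⁻¹ * x) = a⁻¹ := by group
    rw [e, gmv] at h
    exact h.symm
  obtain ⟨b, hb⟩ := hL2 (fun v => Q (((a₂⁻¹ : GL (Fin d ⊕ Fin d) F) :
      Matrix (Fin d ⊕ Fin d) (Fin d ⊕ Fin d) F) *ᵥ v))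
    (fun v => Q (((a₁⁻¹ : GL (Fin d ⊕ Fin d) F) :
      Matrix (Fin d ⊕ Fin d) (Fin d ⊕ Fin d) F) *ᵥ v))
    (hsm' a₂⁻¹) (hpol' a₂⁻¹ ha₂i) (hsm' a₁⁻¹) (hpol' a₁⁻¹ ha₁i)
  have hb' : ∀ v, Q (((a₁⁻¹ : GL (Fin d ⊕ Fin d) F) :
      Matrix (Fin d ⊕ Fin d) (Fin d ⊕ Fin d) F) *ᵥ v)
      = Q (((a₂⁻¹ : GL (Fin d ⊕ Fin d) F) :
      Matrix (Fin d ⊕ Fin d) (Fin d ⊕ Fin d) F) *ᵥ v) + (Cfsg.sympForm d F b v) ^ 2 := hb
  -- b is fixed by x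
  have hsq : ∀ v, Cfsg.sympForm d F b
      ((x : Matrix (Fin d ⊕ Fin d) (Fin d ⊕ Fin d) F) *ᵥ v) = Cfsg.sympForm d F b v := by
    intro v
    apply sq_inj' hch
    have e1 := hb' ((x : Matrix (Fin d ⊕ Fin d) (Fin d ⊕ Fin d) F) *ᵥ v)
    rw [hinv a₁ I₁ v, hinv a₂ I₂ v, hb' v] at e1
    exact (add_left_cancel e1).symm
  have hxb : (x : Matrix (Fin d ⊕ Fin d) (Fin d ⊕ Fin d) F) *ᵥ b = b := by
    have h0 : ((x⁻¹ : GL (Fin d ⊕ Fin d) F) : Matrix (Fin d ⊕ Fin d) (Fin d ⊕ Fin d) F) *ᵥ b - b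
        = 0 := by
      apply hnd
      intro v
      rw [sf_sub_left, sub_eq_zero, ← hsq v]
      have h := (mem_sp x).mp hx
        (((x⁻¹ : GL (Fin d ⊕ Fin d) F) : Matrix (Fin d ⊕ Fin d) (Fin d ⊕ Fin d) F) *ᵥ b) v
      rw [mulVec_inv] at h
      exact h.symm
    have h1 := sub_eq_zero.mp h0
    have h2 := mulVec_inv x b
    rw [h1] at h2
    exact h2
  -- the ℘-condition
  have hpp : ∃ w : F, w ^ 2 + w = Q (((a₂⁻¹ : GL (Fin d ⊕ Fin d) F) :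
      Matrix (Fin d ⊕ Fin d) (Fin d ⊕ Fin d) F) *ᵥ b) := by
    refine hL5 (fun v => Q (((a₂⁻¹ : GL (Fin d ⊕ Fin d) F) :
      Matrix (Fin d ⊕ Fin d) (Fin d ⊕ Fin d) F) *ᵥ v)) (hsm' a₂⁻¹) (hpol' a₂⁻¹ ha₂i)
      (a₂ * a₁⁻¹) (mul_mem ha₂ ha₁i) b (fun v => ?_)
    show Q (((a₂⁻¹ : GL (Fin d ⊕ Fin d) F) : Matrix (Fin d ⊕ Fin d) (Fin d ⊕ Fin d) F) *ᵥ
      (((a₂ * a₁⁻¹ : GL (Fin d ⊕ Fin d) F) : Matrix (Fin d ⊕ Fin d) (Fin d ⊕ Fin d) F) *ᵥ v))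
      = _
    rw [gmv, inv_mulVec]
    exact hb' v
  obtain ⟨t, c, htS, htv, htQ⟩ := hL3 (fun v => Q (((a₂⁻¹ : GL (Fin d ⊕ Fin d) F) :
      Matrix (Fin d ⊕ Fin d) (Fin d ⊕ Fin d) F) *ᵥ v)) (hsm' a₂⁻¹) (hpol' a₂⁻¹ ha₂i) b hpp
  have htQ' : ∀ w, Q (((a₂⁻¹ : GL (Fin d ⊕ Fin d) F) :
      Matrix (Fin d ⊕ Fin d) (Fin d ⊕ Fin d) F) *ᵥ
      ((t : Matrix (Fin d ⊕ Fin d) (Fin d ⊕ Fin d) F) *ᵥ w))
      = Q (((a₁⁻¹ : GL (Fin d ⊕ Fin d) F) :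
      Matrix (Fin d ⊕ Fin d) (Fin d ⊕ Fin d) F) *ᵥ w) := by
    intro w
    rw [hb' w]
    exact htQ w
  refine ⟨t, ⟨htS, ?_, fun v hv => ?_⟩, ⟨1, fun v => ?_⟩⟩
  · apply Units.ext
    rw [Units.val_mul, Units.val_mul]
    apply mat_ext
    intro v
    rw [← Matrix.mulVec_mulVec, ← Matrix.mulVec_mulVec, htv, htv, Matrix.mulVec_add,
      Matrix.mulVec_smul, hxb]
    have h := (mem_sp x).mp hx v b
    rw [hxb] at h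
    rw [h]
  · rw [htv, sf_perp x hx r hr1 b hxb v hv, mul_zero, zero_smul, add_zero]
  · have h := htQ' (((t⁻¹ * a₂ : GL (Fin d ⊕ Fin d) F) :
      Matrix (Fin d ⊕ Fin d) (Fin d ⊕ Fin d) F) *ᵥ v)
    rw [← gmv, ← gmv, ← gmv] at h
    have e1 : a₂⁻¹ * t * (t⁻¹ * a₂) = 1 := by group
    have e2 : a₁⁻¹ * (t⁻¹ * a₂) = a₁⁻¹ * t⁻¹ * a₂ := by group
    rw [e1, e2, Units.val_one, Matrix.one_mulVec] at h
    rw [Units.val_one, one_mul]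
    exact h.symm


/-- The symplectic similarities of `Q`, inside the symplectic group. -/
def KQ (Q : (Fin d ⊕ Fin d → F) → F) : Subgroup ↥(Cfsg.spGL d F) :=
  (Cfsg.Geo.quadSimilarityGroup Q).subgroupOf (Cfsg.spGL d F)

theorem mem_KQ (Q : (Fin d ⊕ Fin d → F) → F) (g : ↥(Cfsg.spGL d F)) :
    g ∈ KQ Q ↔ (g : GL (Fin d ⊕ Fin d) F) ∈ Cfsg.Geo.quadSimilarityGroup Q := Iff.rfl

/-- The centraliser subgroup, inside the symplectic group. -/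
def K1 (x : GL (Fin d ⊕ Fin d) F) (r : ℕ) : Subgroup ↥(Cfsg.spGL d F) :=
  (GC (Cfsg.spGL d F) x r).subgroupOf (Cfsg.spGL d F)

theorem mem_K1 (x : GL (Fin d ⊕ Fin d) F) (r : ℕ) (g : ↥(Cfsg.spGL d F)) :
    g ∈ K1 x r ↔ (g : GL (Fin d ⊕ Fin d) F) ∈ GC (Cfsg.spGL d F) x r := Iff.rfl

theorem fix_iff (Q : (Fin d ⊕ Fin d → F) → F) (xs g : ↥(Cfsg.spGL d F)) :
    xs • (g : ↥(Cfsg.spGL d F) ⧸ KQ Q) = (g : ↥(Cfsg.spGL d F) ⧸ KQ Q) ↔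
      (g : GL (Fin d ⊕ Fin d) F)⁻¹ * (xs : GL (Fin d ⊕ Fin d) F)⁻¹ * (g : GL (Fin d ⊕ Fin d) F)
        ∈ Cfsg.Geo.quadSimilarityGroup Q := by
  rw [MulAction.Quotient.smul_mk, QuotientGroup.eq, mem_KQ]
  have e : (((xs • g)⁻¹ * g : ↥(Cfsg.spGL d F)) : GL (Fin d ⊕ Fin d) F)
      = (g : GL (Fin d ⊕ Fin d) F)⁻¹ * (xs : GL (Fin d ⊕ Fin d) F)⁻¹
        * (g : GL (Fin d ⊕ Fin d) F) := by
    show ((xs : GL (Fin d ⊕ Fin d) F) * (g : GL (Fin d ⊕ Fin d) F))⁻¹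
      * (g : GL (Fin d ⊕ Fin d) F) = _
    group
  rw [e]

theorem move_iff (Q : (Fin d ⊕ Fin d → F) → F) (k g₁ g₂ : ↥(Cfsg.spGL d F)) :
    k • (g₁ : ↥(Cfsg.spGL d F) ⧸ KQ Q) = (g₂ : ↥(Cfsg.spGL d F) ⧸ KQ Q) ↔
      (g₁ : GL (Fin d ⊕ Fin d) F)⁻¹ * (k : GL (Fin d ⊕ Fin d) F)⁻¹ * (g₂ : GL (Fin d ⊕ Fin d) F)
        ∈ Cfsg.Geo.quadSimilarityGroup Q := by
  rw [MulAction.Quotient.smul_mk, QuotientGroup.eq, mem_KQ]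
  have e : (((k • g₁)⁻¹ * g₂ : ↥(Cfsg.spGL d F)) : GL (Fin d ⊕ Fin d) F)
      = (g₁ : GL (Fin d ⊕ Fin d) F)⁻¹ * (k : GL (Fin d ⊕ Fin d) F)⁻¹
        * (g₂ : GL (Fin d ⊕ Fin d) F) := by
    show ((k : GL (Fin d ⊕ Fin d) F) * (g₁ : GL (Fin d ⊕ Fin d) F))⁻¹
      * (g₂ : GL (Fin d ⊕ Fin d) F) = _
    group
  rw [e]

/-- Odd `r` dividing the index: some element of order `r` of the symplectic group has no
conjugate among the similarities of `Q`. -/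
theorem exists_odd_not_conj (hch : (2 : F) = 0) (hd : 0 < d)
    (hL2 : ∀ (Q₁ Q₂ : (Fin d ⊕ Fin d → F) → F),
      (∀ (c : F) (v : Fin d ⊕ Fin d → F), Q₁ (c • v) = c ^ 2 * Q₁ v) →
      (∀ u v : Fin d ⊕ Fin d → F, Q₁ (u + v) = Q₁ u + Q₁ v + Cfsg.sympForm d F u v) →
      (∀ (c : F) (v : Fin d ⊕ Fin d → F), Q₂ (c • v) = c ^ 2 * Q₂ v) →
      (∀ u v : Fin d ⊕ Fin d → F, Q₂ (u + v) = Q₂ u + Q₂ v + Cfsg.sympForm d F u v) →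
      ∃ b : Fin d ⊕ Fin d → F, ∀ v, Q₂ v = Q₁ v + (Cfsg.sympForm d F b v) ^ 2)
    (hnd : ∀ a : Fin d ⊕ Fin d → F, (∀ v, Cfsg.sympForm d F a v = 0) → a = 0)
    (hL3 : ∀ (Q : (Fin d ⊕ Fin d → F) → F),
      (∀ (c : F) (v : Fin d ⊕ Fin d → F), Q (c • v) = c ^ 2 * Q v) →
      (∀ u v : Fin d ⊕ Fin d → F, Q (u + v) = Q u + Q v + Cfsg.sympForm d F u v) →
      ∀ b : Fin d ⊕ Fin d → F, (∃ w : F, w ^ 2 + w = Q b) →
      ∃ (g : GL (Fin d ⊕ Fin d) F) (c : F), g ∈ Cfsg.spGL d F ∧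
        (∀ v, (g : Matrix (Fin d ⊕ Fin d) (Fin d ⊕ Fin d) F) *ᵥ v
          = v + (c * Cfsg.sympForm d F v b) • b) ∧
        ∀ v, Q ((g : Matrix (Fin d ⊕ Fin d) (Fin d ⊕ Fin d) F) *ᵥ v)
          = Q v + (Cfsg.sympForm d F b v) ^ 2)
    (hL5 : ∀ (Q : (Fin d ⊕ Fin d → F) → F),
      (∀ (c : F) (v : Fin d ⊕ Fin d → F), Q (c • v) = c ^ 2 * Q v) →
      (∀ u v : Fin d ⊕ Fin d → F, Q (u + v) = Q u + Q v + Cfsg.sympForm d F u v) →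
      ∀ h : GL (Fin d ⊕ Fin d) F, h ∈ Cfsg.spGL d F → ∀ b : Fin d ⊕ Fin d → F,
      (∀ v, Q ((h : Matrix (Fin d ⊕ Fin d) (Fin d ⊕ Fin d) F) *ᵥ v)
        = Q v + (Cfsg.sympForm d F b v) ^ 2) → ∃ w : F, w ^ 2 + w = Q b)
    (Q : (Fin d ⊕ Fin d → F) → F)
    (hsm : ∀ (c : F) (v : Fin d ⊕ Fin d → F), Q (c • v) = c ^ 2 * Q v)
    (hpol : ∀ u v : Fin d ⊕ Fin d → F, Q (u + v) = Q u + Q v + Cfsg.sympForm d F u v)
    (r : ℕ) [Fact r.Prime] (hr2 : r ≠ 2)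
    (hΩ : r ∣ (Cfsg.Geo.quadSimilarityGroup Q).relIndex (Cfsg.spGL d F)) :
    ∃ x ∈ Cfsg.spGL d F, x ^ r = 1 ∧
      ∀ g ∈ Cfsg.spGL d F, g⁻¹ * x * g ∉ Cfsg.Geo.quadSimilarityGroup Q := by
  have hr1 : (r : F) = 1 := by
    obtain ⟨k, hk⟩ := (Nat.Prime.odd_of_ne_two Fact.out hr2 : Odd r)
    rw [hk, Nat.cast_add, Nat.cast_mul, Nat.cast_two, hch, zero_mul, zero_add, Nat.cast_one]
  obtain ⟨x, ⟨hxS, hxr⟩, hmin⟩ := Set.exists_min_image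
    {x : GL (Fin d ⊕ Fin d) F | x ∈ Cfsg.spGL d F ∧ x ^ r = 1}
    (fun x => Module.finrank F (Fx (x : Matrix (Fin d ⊕ Fin d) (Fin d ⊕ Fin d) F)))
    (Set.toFinite _) ⟨1, one_mem _, one_pow _⟩
  refine ⟨x, hxS, hxr, ?_⟩
  intro g₀ hg₀ hconj
  have hxr' : (x : Matrix (Fin d ⊕ Fin d) (Fin d ⊕ Fin d) F) ^ r = 1 := by
    rw [← Units.val_pow_eq_pow_val, hxr, Units.val_one]
  have hxsr : (⟨x, hxS⟩ : ↥(Cfsg.spGL d F)) ^ r = 1 := Subtype.ext (by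
    show ((⟨x, hxS⟩ : ↥(Cfsg.spGL d F)) : GL (Fin d ⊕ Fin d) F) ^ r = 1
    exact hxr)
  have hcomm : ∀ k ∈ K1 x r, k * (⟨x, hxS⟩ : ↥(Cfsg.spGL d F)) = ⟨x, hxS⟩ * k := by
    intro k hk
    apply Subtype.ext
    show (k : GL (Fin d ⊕ Fin d) F) * x = x * (k : GL (Fin d ⊕ Fin d) F)
    exact ((mem_K1 x r k).mp hk).2.1
  have htr : ∀ c₁ c₂ : ↥(Cfsg.spGL d F) ⧸ KQ Q, (⟨x, hxS⟩ : ↥(Cfsg.spGL d F)) • c₁ = c₁ →
      (⟨x, hxS⟩ : ↥(Cfsg.spGL d F)) • c₂ = c₂ → ∃ k ∈ K1 x r, k • c₁ = c₂ := by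
    intro c₁ c₂ h₁ h₂
    obtain ⟨g₁, rfl⟩ := QuotientGroup.mk_surjective c₁
    obtain ⟨g₂, rfl⟩ := QuotientGroup.mk_surjective c₂
    have f₁ : (g₁ : GL (Fin d ⊕ Fin d) F)⁻¹ * x⁻¹ * (g₁ : GL (Fin d ⊕ Fin d) F)
        ∈ Cfsg.Geo.quadSimilarityGroup Q := (fix_iff Q ⟨x, hxS⟩ g₁).mp h₁
    have f₂ : (g₂ : GL (Fin d ⊕ Fin d) F)⁻¹ * x⁻¹ * (g₂ : GL (Fin d ⊕ Fin d) F)
        ∈ Cfsg.Geo.quadSimilarityGroup Q := (fix_iff Q ⟨x, hxS⟩ g₂).mp h₂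
    obtain ⟨t, htG, htH⟩ := trans_cosets hch hd hL2 hnd hL3 hL5 Q hsm hpol r hr1 x hxS
      (g₁ : GL (Fin d ⊕ Fin d) F) (g₂ : GL (Fin d ⊕ Fin d) F) g₁.2 g₂.2 f₁ f₂
    have hk : (⟨t, htG.1⟩ : ↥(Cfsg.spGL d F)) ∈ K1 x r := (mem_K1 x r ⟨t, htG.1⟩).mpr htG
    exact ⟨⟨t, htG.1⟩, hk, (move_iff Q ⟨t, htG.1⟩ g₁ g₂).mpr htH⟩
  have hc₀ : (⟨x, hxS⟩ : ↥(Cfsg.spGL d F)) • ((⟨g₀, hg₀⟩ : ↥(Cfsg.spGL d F)) :
      ↥(Cfsg.spGL d F) ⧸ KQ Q) = ((⟨g₀, hg₀⟩ : ↥(Cfsg.spGL d F)) :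
      ↥(Cfsg.spGL d F) ⧸ KQ Q) := by
    rw [fix_iff]
    show g₀⁻¹ * x⁻¹ * g₀ ∈ Cfsg.Geo.quadSimilarityGroup Q
    have h := inv_mem hconj
    have e : (g₀⁻¹ * x * g₀)⁻¹ = g₀⁻¹ * x⁻¹ * g₀ := by group
    rwa [e] at h
  have hr : r ∣ Nat.card (↥(Cfsg.spGL d F) ⧸ KQ Q) := hΩ
  have hdvd := dvd_card_of_trans r hr (⟨x, hxS⟩ : ↥(Cfsg.spGL d F)) hxsr (K1 x r) hcomm htr _ hc₀
  obtain ⟨y, hy⟩ := exists_prime_orderOf_dvd_card' r hdvd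
  have hyG : ((y : ↥(Cfsg.spGL d F)) : GL (Fin d ⊕ Fin d) F) ∈ GC (Cfsg.spGL d F) x r :=
    (mem_K1 x r _).mp y.2
  have hyr : ((y : ↥(Cfsg.spGL d F)) : GL (Fin d ⊕ Fin d) F) ^ r = 1 := by
    have h := pow_orderOf_eq_one y
    rw [hy] at h
    have h2 : (((y ^ r : ↥(K1 x r)) : ↥(Cfsg.spGL d F)) : GL (Fin d ⊕ Fin d) F) = 1 := by
      rw [h]
      rfl
    exact h2
  have hy1 : ((y : ↥(Cfsg.spGL d F)) : GL (Fin d ⊕ Fin d) F) ≠ 1 := by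
    intro h
    have h2 : y = 1 := Subtype.ext (Subtype.ext h)
    rw [h2, orderOf_one] at hy
    exact (Fact.out : r.Prime).ne_one hy.symm
  have hlt := fx_lt' (Cfsg.spGL d F) x r hxr' hr1 _ hyG hy1
  have hzS : x * ((y : ↥(Cfsg.spGL d F)) : GL (Fin d ⊕ Fin d) F) ∈ Cfsg.spGL d F :=
    mul_mem hxS hyG.1
  have hc : Commute x ((y : ↥(Cfsg.spGL d F)) : GL (Fin d ⊕ Fin d) F) := hyG.2.1.symm
  have hzr : (x * ((y : ↥(Cfsg.spGL d F)) : GL (Fin d ⊕ Fin d) F)) ^ r = 1 := by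
    rw [hc.mul_pow, hxr, hyr, one_mul]
  have h5 := hmin _ ⟨hzS, hzr⟩
  exact absurd (Submodule.finrank_lt_finrank_of_lt hlt) (not_lt.mpr h5)

end main

end Cfsg.Agent.Helper13.SpQ7
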