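import Mathlib
import Cfsg.Agent.Helper13.NSm1
import Cfsg.Agent.Helper13.SpQ7

set_option autoImplicit false
open Cfsg

namespace Cfsg.Agent.Helper13.OmM3

open Matrix Cfsg.Agent.Helper4.OrthPlane Cfsg.Agent.Helper4.CartanD Cfsg.Agent.Helper13.NSm1
  Cfsg.Agent.Helper13.SpQ7

variable {ι : Type} [Fintype ι] [DecidableEq ι] {F : Type*} [Field F]
variable (Q : (ι → F) → F)

theorem omega_le_iso {g : GL ι F} (hg : g ∈ Cfsg.Geo.omegaGL Q) :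
    g ∈ Cfsg.isometryGroup F Q := by
  obtain ⟨g', -, rfl⟩ := Subgroup.mem_map.mp hg
  exact g'.2

/-- The orbit-closure argument: a subgroup of `Ω` containing the stabiliser of a norm-one
vector and moving it is all of `Ω`. -/
theorem maximal_core (hQ : Cfsg.Geo.IsNondegenerateQuadraticForm Q) (v₁ : ι → F)
    (hv₁ : Q v₁ = 1)
    (hT : ∀ a b : ι → F, Q a = 1 → Q b = 1 →
      ∃ g ∈ Cfsg.Geo.omegaGL Q, (g : Matrix ι ι F) *ᵥ a = b)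
    (hA : ∀ a b b' : ι → F, Q a = 1 → Q b = 1 → Q b' = 1 → b ≠ a → b' ≠ a →
      Bf Q hQ a b = Bf Q hQ a b' →
      ∃ g ∈ Cfsg.Geo.omegaGL Q, (g : Matrix ι ι F) *ᵥ a = a ∧ (g : Matrix ι ι F) *ᵥ b = b')
    (hTri : ∀ lam mu : F, ∃ a b c : ι → F, Q a = 1 ∧ Q b = 1 ∧ Q c = 1 ∧ a ≠ c ∧ c ≠ b ∧
      a ≠ b ∧ Bf Q hQ a c = lam ∧ Bf Q hQ c b = lam ∧ Bf Q hQ a b = mu)
    (M : Subgroup (GL ι F))
    (hHM : ∀ g ∈ Cfsg.Geo.omegaGL Q, (g : Matrix ι ι F) *ᵥ v₁ = v₁ → g ∈ M)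
    (hMΩ : M ≤ Cfsg.Geo.omegaGL Q) (m₀ : GL ι F) (hm₀ : m₀ ∈ M)
    (hm₀v : (m₀ : Matrix ι ι F) *ᵥ v₁ ≠ v₁) :
    Cfsg.Geo.omegaGL Q ≤ M := by
  have hiso : ∀ g ∈ Cfsg.Geo.omegaGL Q, ∀ u, Q ((g : Matrix ι ι F) *ᵥ u) = Q u :=
    fun g hg u => iso_apply Q g (omega_le_iso Q hg) u
  have hB : ∀ g ∈ Cfsg.Geo.omegaGL Q, ∀ u w,
      Bf Q hQ ((g : Matrix ι ι F) *ᵥ u) ((g : Matrix ι ι F) *ᵥ w) = Bf Q hQ u w :=
    fun g hg u w => iso_B Q hQ _ (hiso g hg) u w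
  have hinj : ∀ g : GL ι F, ∀ u w : ι → F,
      (g : Matrix ι ι F) *ᵥ u = (g : Matrix ι ι F) *ᵥ w → u = w := by
    intro g u w h
    have h1 := congrArg (fun z => ((g⁻¹ : GL ι F) : Matrix ι ι F) *ᵥ z) h
    have h2 : ((g⁻¹ : GL ι F) : Matrix ι ι F) *ᵥ ((g : Matrix ι ι F) *ᵥ u)
        = ((g⁻¹ : GL ι F) : Matrix ι ι F) *ᵥ ((g : Matrix ι ι F) *ᵥ w) := h1
    rw [inv_mulVec, inv_mulVec] at h2
    exact h2
  have stabM : ∀ m ∈ M, ∀ h ∈ Cfsg.Geo.omegaGL Q,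
      (h : Matrix ι ι F) *ᵥ ((m : Matrix ι ι F) *ᵥ v₁) = (m : Matrix ι ι F) *ᵥ v₁ → h ∈ M := by
    intro m hm h hh hfix
    have h1 : m⁻¹ * h * m ∈ Cfsg.Geo.omegaGL Q :=
      mul_mem (mul_mem (inv_mem (hMΩ hm)) hh) (hMΩ hm)
    have h2 : ((m⁻¹ * h * m : GL ι F) : Matrix ι ι F) *ᵥ v₁ = v₁ := by
      rw [gmv, gmv, hfix, inv_mulVec]
    have h3 := hHM _ h1 h2
    have e : h = m * (m⁻¹ * h * m) * m⁻¹ := by group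
    rw [e]
    exact mul_mem (mul_mem hm h3) (inv_mem hm)
  obtain ⟨u₀, hu₀⟩ : ∃ u₀, u₀ = (m₀ : Matrix ι ι F) *ᵥ v₁ := ⟨_, rfl⟩
  obtain ⟨lam₀, hlam₀⟩ : ∃ l, l = Bf Q hQ v₁ u₀ := ⟨_, rfl⟩
  have cl0 : ∀ m ∈ M, ∀ b : ι → F, Q b = 1 → b ≠ (m : Matrix ι ι F) *ᵥ v₁ →
      Bf Q hQ ((m : Matrix ι ι F) *ᵥ v₁) b = lam₀ →
      ∃ m' ∈ M, (m' : Matrix ι ι F) *ᵥ v₁ = b := by
    intro m hm b hb hne hBb
    have hmΩ := hMΩ hm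
    have hb₀Q : Q ((m : Matrix ι ι F) *ᵥ u₀) = 1 := by
      rw [hiso m hmΩ, hu₀, hiso m₀ (hMΩ hm₀), hv₁]
    have hb₀ne : (m : Matrix ι ι F) *ᵥ u₀ ≠ (m : Matrix ι ι F) *ᵥ v₁ := by
      intro h
      apply hm₀v
      rw [← hu₀]
      exact hinj m _ _ h
    have hb₀B : Bf Q hQ ((m : Matrix ι ι F) *ᵥ v₁) ((m : Matrix ι ι F) *ᵥ u₀) = lam₀ := by
      rw [hB m hmΩ, hlam₀]
    obtain ⟨h, hh, hha, hhb⟩ := hA ((m : Matrix ι ι F) *ᵥ v₁) ((m : Matrix ι ι F) *ᵥ u₀) b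
      (by rw [hiso m hmΩ, hv₁]) hb₀Q hb hb₀ne hne (by rw [hb₀B, hBb])
    have hhM := stabM m hm h hh hha
    refine ⟨h * m * m₀, mul_mem (mul_mem hhM hm) hm₀, ?_⟩
    rw [gmv, gmv, ← hu₀, hhb]
  have clmu : ∀ mu : F, ∀ m ∈ M, ∀ b' : ι → F, Q b' = 1 → b' ≠ (m : Matrix ι ι F) *ᵥ v₁ →
      Bf Q hQ ((m : Matrix ι ι F) *ᵥ v₁) b' = mu →
      ∃ m' ∈ M, (m' : Matrix ι ι F) *ᵥ v₁ = b' := by
    intro mu m hm b' hb' hne hBb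
    have hmΩ := hMΩ hm
    obtain ⟨a, b, c, ha, hb, hc, hac, hcb, hab, hBac, hBcb, hBab⟩ := hTri lam₀ mu
    have ha'Q : Q ((m : Matrix ι ι F) *ᵥ v₁) = 1 := by rw [hiso m hmΩ, hv₁]
    obtain ⟨g, hg, hga⟩ := hT a ((m : Matrix ι ι F) *ᵥ v₁) ha ha'Q
    obtain ⟨m₁, hm₁, hm₁c⟩ := cl0 m hm ((g : Matrix ι ι F) *ᵥ c) (by rw [hiso g hg, hc])
      (by
        intro h
        rw [← hga] at h
        exact hac (hinj g _ _ h).symm)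
      (by rw [← hga, hB g hg, hBac])
    obtain ⟨m₂, hm₂, hm₂b⟩ := cl0 m₁ hm₁ ((g : Matrix ι ι F) *ᵥ b) (by rw [hiso g hg, hb])
      (by
        rw [hm₁c]
        intro h
        exact hcb (hinj g _ _ h).symm)
      (by rw [hm₁c, hB g hg, hBcb])
    obtain ⟨h, hh, hha, hhb⟩ := hA ((m : Matrix ι ι F) *ᵥ v₁) ((g : Matrix ι ι F) *ᵥ b) b'
      ha'Q (by rw [hiso g hg, hb]) hb'
      (by
        rw [← hga]
        intro h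
        exact hab (hinj g _ _ h).symm)
      hne (by rw [hBb, ← hga, hB g hg, hBab])
    have hhM := stabM m hm h hh hha
    refine ⟨h * m₂, mul_mem hhM hm₂, ?_⟩
    rw [gmv, hm₂b, hhb]
  intro g hg
  have hgQ : Q ((g : Matrix ι ι F) *ᵥ v₁) = 1 := by rw [hiso g hg, hv₁]
  have hex : ∃ m' ∈ M, (m' : Matrix ι ι F) *ᵥ v₁ = (g : Matrix ι ι F) *ᵥ v₁ := by
    by_cases h : (g : Matrix ι ι F) *ᵥ v₁ = v₁
    · exact ⟨1, one_mem _, by rw [Units.val_one, Matrix.one_mulVec, h]⟩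
    · exact clmu (Bf Q hQ v₁ ((g : Matrix ι ι F) *ᵥ v₁)) 1 (one_mem _)
        ((g : Matrix ι ι F) *ᵥ v₁) hgQ
        (by rw [Units.val_one, Matrix.one_mulVec]; exact h)
        (by rw [Units.val_one, Matrix.one_mulVec])
  obtain ⟨m', hm', hm'v⟩ := hex
  have h1 : m'⁻¹ * g ∈ Cfsg.Geo.omegaGL Q := mul_mem (inv_mem (hMΩ hm')) hg
  have h2 : ((m'⁻¹ * g : GL ι F) : Matrix ι ι F) *ᵥ v₁ = v₁ := by
    rw [gmv, ← hm'v, inv_mulVec]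
  have h3 := hHM _ h1 h2
  have e : g = m' * (m'⁻¹ * g) := by group
  rw [e]
  exact mul_mem hm' h3

end Cfsg.Agent.Helper13.OmM3
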