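import Mathlib
import Cfsg.Agent.Helper13.OmM3
import Cfsg.Agent.Helper20.NS5c

set_option autoImplicit false
open Cfsg

namespace Cfsg.Agent.Helper13.OmM4

open Matrix Cfsg.Agent.Helper4.OrthPlane Cfsg.Agent.Helper4.CartanD Cfsg.Agent.Helper13.NSm1
  Cfsg.Agent.Helper13.SpQ7

theorem two_eq_zero_of_not_odd {F : Type*} [Field F] [Fintype F]
    (h : ¬ Odd (Fintype.card F)) : (2 : F) = 0 := by
  obtain ⟨n, hp, hcard⟩ := FiniteField.card F (ringChar F)
  have hev : Even (Fintype.card F) := Nat.not_odd_iff_even.mp h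
  rw [hcard] at hev
  have h2 : Even (ringChar F) := (Nat.even_pow.mp hev).1
  have h3 : ringChar F = 2 := (Nat.Prime.even_iff hp).mp h2
  have h4 := CharP.cast_eq_zero F (ringChar F)
  rw [h3] at h4
  exact_mod_cast h4

variable {ι : Type} [Fintype ι] [DecidableEq ι] {F : Type*} [Field F] [Fintype F]
variable (Q : (ι → F) → F)

/-- The stabiliser of a nonsingular point, among isometries, is the stabiliser of its vector
of norm one. -/
theorem mem_stab_iff (hQ : Cfsg.Geo.IsNondegenerateQuadraticForm Q) (hch : (2 : F) = 0)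
    (v : ι → F) (hv : Q v ≠ 0) :
    ∃ v₁ : ι → F, Q v₁ = 1 ∧ ∀ g ∈ Cfsg.isometryGroup F Q,
      (g ∈ Cfsg.Geo.subspaceStabilizer (Submodule.span F {v}) ↔
        (g : Matrix ι ι F) *ᵥ v₁ = v₁) := by
  obtain ⟨s, hs⟩ := Cfsg.Agent.Helper20.NS5c.exists_sq hch (Q v)⁻¹
  have hs0 : s ≠ 0 := by
    rintro rfl
    rw [zero_pow two_ne_zero] at hs
    exact inv_ne_zero hv hs.symm
  have hQ1 : Q (s • v) = 1 := by rw [hQ.smul, hs, inv_mul_cancel₀ hv]
  refine ⟨s • v, hQ1, ?_⟩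
  intro g hg
  have hspan : ∀ w : ι → F, w ∈ Submodule.span F {v} ↔ ∃ c : F, w = c • (s • v) := by
    intro w
    rw [Submodule.mem_span_singleton]
    constructor
    · rintro ⟨c, rfl⟩
      exact ⟨c * s⁻¹, by rw [smul_smul, mul_assoc, inv_mul_cancel₀ hs0, mul_one]⟩
    · rintro ⟨c, rfl⟩
      exact ⟨c * s, by rw [smul_smul]⟩
  constructor
  · intro hstab
    have hstab' : ∀ w : ι → F, w ∈ Submodule.span F {v} ↔
        (g : Matrix ι ι F) *ᵥ w ∈ Submodule.span F {v} := hstab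
    have h1 : (g : Matrix ι ι F) *ᵥ (s • v) ∈ Submodule.span F {v} :=
      (hstab' (s • v)).mp ((hspan _).mpr ⟨1, (one_smul _ _).symm⟩)
    obtain ⟨c, hc⟩ := (hspan _).mp h1
    have h2 := iso_apply Q g hg (s • v)
    rw [hc, hQ.smul c, hQ1, mul_one] at h2
    have hc1 : c = 1 := Cfsg.Agent.Helper20.NS5c.eq_one_of_sq hch c h2
    rw [hc, hc1, one_smul]
  · intro hfix
    apply stab_of_maps
    intro w hw
    obtain ⟨c, rfl⟩ := (hspan w).mp hw
    rw [Matrix.mulVec_smul, hfix]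
    exact (hspan _).mpr ⟨c, rfl⟩

end Cfsg.Agent.Helper13.OmM4
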