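import Mathlib
import Cfsg.Prelude.Def_LieClassical
import Cfsg.Agent.Helper8.SUBasic
import Cfsg.Agent.Helper14.HermCount

set_option autoImplicit false
open Cfsg

namespace Cfsg.Agent.Helper13.U3A2

open Matrix Cfsg.Agent.Helper8.SULag

variable {F : Type*} [Field F] [Fintype F] {p : ℕ} [Fact p.Prime] [CharP F p]

local notation "hh" => Cfsg.hermForm 3 F p

/-- A unitary pair `a, b` of order `3` with `b a = ω a b` is, in a suitable orthonormal basis,
the standard pair `diag(1, ω², ω)`, cyclic permutation. -/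
theorem ubasis (hF : Fintype.card F = p ^ 2) (hp3 : p % 3 = 2)
    (a b : GL (Fin 3) F) (ha : a ∈ Cfsg.GU 3 F p) (hb : b ∈ Cfsg.GU 3 F p) (ω : F) (hω : ω ≠ 1)
    (hω3 : ω ^ 3 = 1) (ha3 : a ^ 3 = 1) (hb3 : b ^ 3 = 1)
    (hba : ((b * a : GL (Fin 3) F) : Matrix (Fin 3) (Fin 3) F) =
        ω • ((a * b : GL (Fin 3) F) : Matrix (Fin 3) (Fin 3) F)) :
    ∃ g : GL (Fin 3) F, g ∈ Cfsg.GU 3 F p ∧
      (a : Matrix (Fin 3) (Fin 3) F) = (g : Matrix (Fin 3) (Fin 3) F) *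
        Matrix.diagonal ![1, ω ^ 2, ω] * ((g⁻¹ : GL (Fin 3) F) : Matrix (Fin 3) (Fin 3) F) ∧
      (b : Matrix (Fin 3) (Fin 3) F) = (g : Matrix (Fin 3) (Fin 3) F) *
        !![0, 0, 1; 1, 0, 0; 0, 1, 0] * ((g⁻¹ : GL (Fin 3) F) : Matrix (Fin 3) (Fin 3) F) := by
  classical
  have hq : QF F p := qf_of_card hF
  obtain ⟨A, hA⟩ : ∃ A : Matrix (Fin 3) (Fin 3) F, A = (a : Matrix (Fin 3) (Fin 3) F) := ⟨_, rfl⟩
  obtain ⟨B, hB⟩ : ∃ B : Matrix (Fin 3) (Fin 3) F, B = (b : Matrix (Fin 3) (Fin 3) F) := ⟨_, rfl⟩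
  have hmapA : ∀ u v : Fin 3 → F, hh (A *ᵥ u) (A *ᵥ v) = hh u v := by
    intro u v; rw [hA]; exact h_map ha u v
  have hmapB : ∀ u v : Fin 3 → F, hh (B *ᵥ u) (B *ᵥ v) = hh u v := by
    intro u v; rw [hB]; exact h_map hb u v
  have hsum : 1 + ω + ω ^ 2 = 0 := by
    have h1 : (ω - 1) * (1 + ω + ω ^ 2) = 0 := by linear_combination hω3
    rcases mul_eq_zero.mp h1 with h | h
    · exact absurd (sub_eq_zero.mp h) hω
    · exact h
  have hω4 : ω ^ 4 = ω := by linear_combination ω * hω3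
  have h3 : (3 : F) ≠ 0 := by
    intro h
    have h' : ((3 : ℕ) : F) = 0 := by exact_mod_cast h
    rw [CharP.cast_eq_zero_iff F p 3] at h'
    have : p ≤ 3 := Nat.le_of_dvd (by norm_num) h'
    interval_cases p <;> omega
  have hωp : ω ^ p = ω ^ 2 := by
    have hpe : p = 3 * (p / 3) + 2 := by omega
    rw [hpe, pow_add, pow_mul, hω3, one_pow, one_mul]
  have hω2 : ω ^ 2 ≠ 1 := by
    intro h
    apply hω
    linear_combination hω3 - ω * h
  have hω2p : (ω ^ 2) ^ p = ω := by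
    rw [← pow_mul, mul_comm, pow_mul, hωp]
    linear_combination ω * hω3
  have hAB : A * B = ω ^ 2 • (B * A) := by
    have h1 : B * A = ω • (A * B) := by
      rw [hA, hB, ← Units.val_mul, ← Units.val_mul]; exact hba
    rw [h1, smul_smul, ← pow_succ, hω3, one_smul]
  have hA3 : A * A * A = 1 := by
    have h1 := congrArg (fun u : GL (Fin 3) F => (u : Matrix (Fin 3) (Fin 3) F)) ha3
    simp only [pow_succ, pow_zero, one_mul, Units.val_mul, Units.val_one] at h1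
    rw [hA]; exact h1
  have hB3 : B * B * B = 1 := by
    have h1 := congrArg (fun u : GL (Fin 3) F => (u : Matrix (Fin 3) (Fin 3) F)) hb3
    simp only [pow_succ, pow_zero, one_mul, Units.val_mul, Units.val_one] at h1
    rw [hB]; exact h1
  have hABv : ∀ v : Fin 3 → F, A *ᵥ (B *ᵥ v) = ω ^ 2 • (B *ᵥ (A *ᵥ v)) := by
    intro v
    rw [Matrix.mulVec_mulVec, hAB, Matrix.smul_mulVec, ← Matrix.mulVec_mulVec]
  have hA3v : ∀ v : Fin 3 → F, A *ᵥ (A *ᵥ (A *ᵥ v)) = v := by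
    intro v
    rw [Matrix.mulVec_mulVec, Matrix.mulVec_mulVec, hA3, Matrix.one_mulVec]
  have hB3v : ∀ v : Fin 3 → F, B *ᵥ (B *ᵥ (B *ᵥ v)) = v := by
    intro v
    rw [Matrix.mulVec_mulVec, Matrix.mulVec_mulVec, hB3, Matrix.one_mulVec]
  have hBinj : ∀ v : Fin 3 → F, B *ᵥ v = 0 → v = 0 := by
    intro v hv
    have h1 := hB3v v
    rw [hv, Matrix.mulVec_zero, Matrix.mulVec_zero] at h1
    exact h1.symm
  -- an eigenvector of `A` for the eigenvalue `1`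
  obtain ⟨e, he0, hAe⟩ : ∃ e : Fin 3 → F, e ≠ 0 ∧ A *ᵥ e = e := by
    obtain ⟨v, hv⟩ : ∃ v : Fin 3 → F, v = Pi.single 0 1 := ⟨_, rfl⟩
    have hv0 : v ≠ 0 := by
      intro h
      have h1 := congrFun h 0
      rw [hv] at h1
      simp at h1
    obtain ⟨u0, hu0⟩ : ∃ u0, u0 = v + A *ᵥ v + A *ᵥ (A *ᵥ v) := ⟨_, rfl⟩
    obtain ⟨u1, hu1⟩ : ∃ u1, u1 = v + ω ^ 2 • A *ᵥ v + ω • A *ᵥ (A *ᵥ v) := ⟨_, rfl⟩
    obtain ⟨u2, hu2⟩ : ∃ u2, u2 = v + ω • A *ᵥ v + ω ^ 2 • A *ᵥ (A *ᵥ v) := ⟨_, rfl⟩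
    have hAu0 : A *ᵥ u0 = u0 := by
      rw [hu0, Matrix.mulVec_add, Matrix.mulVec_add, hA3v]; abel
    have hAu1 : A *ᵥ u1 = ω • u1 := by
      rw [hu1, Matrix.mulVec_add, Matrix.mulVec_add, Matrix.mulVec_smul, Matrix.mulVec_smul, hA3v,
        smul_add, smul_add, smul_smul, smul_smul]
      have e1 : ω * ω ^ 2 = 1 := by linear_combination hω3
      rw [e1, one_smul, ← pow_two]; abel
    have hAu2 : A *ᵥ u2 = ω ^ 2 • u2 := by
      rw [hu2, Matrix.mulVec_add, Matrix.mulVec_add, Matrix.mulVec_smul, Matrix.mulVec_smul, hA3v,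
        smul_add, smul_add, smul_smul, smul_smul]
      have e1 : ω ^ 2 * ω = 1 := by linear_combination hω3
      have e2 : ω ^ 2 * ω ^ 2 = ω := by linear_combination ω * hω3
      rw [e1, e2, one_smul]; abel
    have hs : u0 + u1 + u2 = (3 : F) • v := by
      have e1 : u0 + u1 + u2 = (3 : F) • v + (1 + ω + ω ^ 2) • A *ᵥ v +
          (1 + ω + ω ^ 2) • A *ᵥ (A *ᵥ v) := by
        rw [hu0, hu1, hu2]; module
      rw [e1, hsum, zero_smul, zero_smul, add_zero, add_zero]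
    by_cases h0 : u0 = 0
    · by_cases h1 : u1 = 0
      · have h2 : u2 ≠ 0 := by
          intro h2
          rw [h0, h1, h2] at hs
          have h4 : (3 : F) • v = 0 := by simpa using hs.symm
          rcases smul_eq_zero.mp h4 with h | h
          · exact h3 h
          · exact hv0 h
        refine ⟨B *ᵥ (B *ᵥ u2), fun h => h2 (hBinj _ (hBinj _ h)), ?_⟩
        simp only [hABv, hAu2, Matrix.mulVec_smul, smul_smul]
        convert one_smul F _ using 2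
        linear_combination (ω ^ 3 + 1) * hω3
      · refine ⟨B *ᵥ u1, fun h => h1 (hBinj _ h), ?_⟩
        rw [hABv, hAu1, Matrix.mulVec_smul, smul_smul]
        have e1 : ω ^ 2 * ω = 1 := by linear_combination hω3
        rw [e1, one_smul]
    · exact ⟨u0, h0, hAu0⟩
  obtain ⟨e1, he1⟩ : ∃ e1, e1 = B *ᵥ e := ⟨_, rfl⟩
  obtain ⟨e2, he2⟩ : ∃ e2, e2 = B *ᵥ e1 := ⟨_, rfl⟩
  have hAe1 : A *ᵥ e1 = ω ^ 2 • e1 := by rw [he1, hABv, hAe]
  have hAe2 : A *ᵥ e2 = ω • e2 := by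
    rw [he2, hABv, hAe1, Matrix.mulVec_smul, smul_smul]
    have e3 : ω ^ 2 * ω ^ 2 = ω := by linear_combination ω * hω3
    rw [e3]
  have hBe2 : B *ᵥ e2 = e := by rw [he2, he1]; exact hB3v e
  have he1_0 : e1 ≠ 0 := fun h => he0 (hBinj _ (he1 ▸ h))
  have he2_0 : e2 ≠ 0 := fun h => he1_0 (hBinj _ (he2 ▸ h))
  have horth : ∀ (u v : Fin 3 → F) (lam mu : F), A *ᵥ u = lam • u → A *ᵥ v = mu • v →
      lam * mu ^ p ≠ 1 → hh u v = 0 := by
    intro u v lam mu hu hv hne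
    have h1 := hmapA u v
    rw [hu, hv, h_smul_left, h_smul_right hq, frob_apply] at h1
    have h2 : (lam * mu ^ p - 1) * hh u v = 0 := by linear_combination h1
    rcases mul_eq_zero.mp h2 with h | h
    · exact absurd (sub_eq_zero.mp h) hne
    · exact h
  have hAe' : A *ᵥ e = (1 : F) • e := by rw [one_smul]; exact hAe
  have h01 : hh e e1 = 0 := horth e e1 1 (ω ^ 2) hAe' hAe1 (by rw [one_mul, hω2p]; exact hω)
  have h02 : hh e e2 = 0 := horth e e2 1 ω hAe' hAe2 (by rw [one_mul, hωp]; exact hω2)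
  have h12 : hh e1 e2 = 0 := horth e1 e2 (ω ^ 2) ω hAe1 hAe2 (by
    rw [hωp]; intro h; apply hω; linear_combination h - ω * hω3)
  have h10 : hh e1 e = 0 := h_symm0 hq h01
  have h20 : hh e2 e = 0 := h_symm0 hq h02
  have h21 : hh e2 e1 = 0 := h_symm0 hq h12
  obtain ⟨c, hc⟩ : ∃ c, c = hh e e := ⟨_, rfl⟩
  have hc1 : hh e1 e1 = c := by rw [he1, hmapB, hc]
  have hc2 : hh e2 e2 = c := by rw [he2, hmapB, hc1]
  obtain ⟨G, hG⟩ : ∃ G : Matrix (Fin 3) (Fin 3) F, G = Matrix.of (fun i j => ![e, e1, e2] j i) :=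
    ⟨_, rfl⟩
  have hGv : ∀ x : Fin 3 → F, G *ᵥ x = x 0 • e + x 1 • e1 + x 2 • e2 := by
    intro x
    ext i
    simp [hG, Matrix.mulVec, dotProduct, Fin.sum_univ_three]
    ring
  have hGh : ∀ x y : Fin 3 → F, hh (G *ᵥ x) (G *ᵥ y) = c * hh x y := by
    intro x y
    rw [hGv, hGv]
    simp only [h_add_left, h_add_right hq, h_smul_left, h_smul_right hq, frob_apply, h01, h02, h12,
      h10, h20, h21, hc1, hc2, ← hc]
    simp [Cfsg.hermForm, Fin.sum_univ_three]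
    ring
  have hGinj : ∀ x : Fin 3 → F, G *ᵥ x = 0 → x = 0 := by
    intro x hx
    rw [hGv] at hx
    have hx1 : x 0 • e + (x 1 * ω ^ 2) • e1 + (x 2 * ω) • e2 = 0 := by
      have h1 := congrArg (fun w => A *ᵥ w) hx
      simp only [Matrix.mulVec_add, Matrix.mulVec_smul, hAe, hAe1, hAe2, smul_smul,
        Matrix.mulVec_zero] at h1
      exact h1
    have hx2 : x 0 • e + (x 1 * ω) • e1 + (x 2 * ω ^ 2) • e2 = 0 := by
      have h1 := congrArg (fun w => A *ᵥ w) hx1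
      simp only [Matrix.mulVec_add, Matrix.mulVec_smul, hAe, hAe1, hAe2, smul_smul,
        Matrix.mulVec_zero] at h1
      have e1' : x 1 * ω ^ 2 * ω ^ 2 = x 1 * ω := by linear_combination x 1 * ω * hω3
      have e2' : x 2 * ω * ω = x 2 * ω ^ 2 := by ring
      rw [e1', e2'] at h1
      exact h1
    have s0 : (3 * x 0) • e = 0 := by
      have e4 : (3 * x 0) • e = (x 0 • e + x 1 • e1 + x 2 • e2) +
          (x 0 • e + (x 1 * ω ^ 2) • e1 + (x 2 * ω) • e2) +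
          (x 0 • e + (x 1 * ω) • e1 + (x 2 * ω ^ 2) • e2) - (x 1 * (1 + ω + ω ^ 2)) • e1 -
          (x 2 * (1 + ω + ω ^ 2)) • e2 := by module
      rw [e4, hx, hx1, hx2, hsum]; simp
    have s1 : (3 * x 1) • e1 = 0 := by
      have e4 : (3 * x 1) • e1 = (x 0 • e + x 1 • e1 + x 2 • e2) +
          ω • (x 0 • e + (x 1 * ω ^ 2) • e1 + (x 2 * ω) • e2) +
          ω ^ 2 • (x 0 • e + (x 1 * ω) • e1 + (x 2 * ω ^ 2) • e2) - (x 0 * (1 + ω + ω ^ 2)) • e -
          (x 2 * (1 + ω ^ 2 + ω ^ 4)) • e2 + (x 1 * (3 - 1 - ω ^ 3 - ω ^ 3)) • e1 := by module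
      have e5 : (1 + ω ^ 2 + ω ^ 4 : F) = 0 := by rw [hω4]; linear_combination hsum
      have e6 : (3 - 1 - ω ^ 3 - ω ^ 3 : F) = 0 := by rw [hω3]; ring
      rw [e4, hx, hx1, hx2, hsum, e5, e6]; simp
    have s2 : (3 * x 2) • e2 = 0 := by
      have e4 : (3 * x 2) • e2 = (x 0 • e + x 1 • e1 + x 2 • e2) +
          ω ^ 2 • (x 0 • e + (x 1 * ω ^ 2) • e1 + (x 2 * ω) • e2) +
          ω • (x 0 • e + (x 1 * ω) • e1 + (x 2 * ω ^ 2) • e2) - (x 0 * (1 + ω ^ 2 + ω)) • e -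
          (x 1 * (1 + ω ^ 4 + ω ^ 2)) • e1 + (x 2 * (3 - 1 - ω ^ 3 - ω ^ 3)) • e2 := by module
      have e5 : (1 + ω ^ 4 + ω ^ 2 : F) = 0 := by rw [hω4]; linear_combination hsum
      have e6 : (3 - 1 - ω ^ 3 - ω ^ 3 : F) = 0 := by rw [hω3]; ring
      have e7 : (1 + ω ^ 2 + ω : F) = 0 := by linear_combination hsum
      rw [e4, hx, hx1, hx2, e7, e5, e6]; simp
    have key : ∀ (t : F) (w : Fin 3 → F), w ≠ 0 → (3 * t) • w = 0 → t = 0 := by
      intro t w hw h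
      rcases smul_eq_zero.mp h with h' | h'
      · rcases mul_eq_zero.mp h' with h'' | h''
        · exact absurd h'' h3
        · exact h''
      · exact absurd h' hw
    have x0 := key _ _ he0 s0
    have x1 := key _ _ he1_0 s1
    have x2 := key _ _ he2_0 s2
    ext i
    fin_cases i <;> simp [x0, x1, x2]
  have hdet : G.det ≠ 0 := by
    intro h
    obtain ⟨v, hv0, hv⟩ := Matrix.exists_mulVec_eq_zero_iff.mpr h
    exact hv0 (hGinj v hv)
  have hc0 : c ≠ 0 := by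
    intro h0
    apply he0
    apply h_nondeg hq e
    intro y
    have hy : G *ᵥ (G⁻¹ *ᵥ y) = y := by
      rw [Matrix.mulVec_mulVec, Matrix.mul_nonsing_inv _ (isUnit_iff_ne_zero.mpr hdet),
        Matrix.one_mulVec]
    have he' : G *ᵥ (Pi.single 0 1) = e := by rw [hGv]; simp
    calc hh e y = hh (G *ᵥ (Pi.single 0 1)) (G *ᵥ (G⁻¹ *ᵥ y)) := by rw [he', hy]
      _ = 0 := by rw [hGh, h0, zero_mul]
  have hcp : c ^ p = c := by
    have h1 := h_conj hq e e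
    rw [frob_apply, ← hc] at h1
    exact h1
  obtain ⟨s, hs⟩ := Cfsg.Agent.Helper14.HermCount.norm_surj hF c⁻¹ (by rw [inv_pow, hcp])
    (inv_ne_zero hc0)
  have hs0 : s ≠ 0 := by
    rintro rfl
    rw [zero_pow (by omega)] at hs
    exact (inv_ne_zero hc0) hs.symm
  have hdet' : (s • G).det ≠ 0 := by
    rw [Matrix.det_smul]
    exact mul_ne_zero (pow_ne_zero _ hs0) hdet
  obtain ⟨g, hgval⟩ : ∃ g : GL (Fin 3) F, (g : Matrix (Fin 3) (Fin 3) F) = s • G :=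
    ⟨Matrix.GeneralLinearGroup.mkOfDetNeZero (s • G) hdet', rfl⟩
  have hgg : (g : Matrix (Fin 3) (Fin 3) F) * ((g⁻¹ : GL (Fin 3) F) : Matrix (Fin 3) (Fin 3) F) = 1 := by
    rw [← Units.val_mul, mul_inv_cancel, Units.val_one]
  have hext : ∀ M N : Matrix (Fin 3) (Fin 3) F, (∀ x : Fin 3 → F, M *ᵥ x = N *ᵥ x) → M = N := by
    intro M N h
    apply Matrix.toLin'.injective
    apply LinearMap.ext
    intro x
    rw [Matrix.toLin'_apply, Matrix.toLin'_apply]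
    exact h x
  have hfin : ∀ M D : Matrix (Fin 3) (Fin 3) F, M * (s • G) = (s • G) * D →
      M = (g : Matrix (Fin 3) (Fin 3) F) * D * ((g⁻¹ : GL (Fin 3) F) : Matrix (Fin 3) (Fin 3) F) := by
    intro M D h
    rw [hgval, ← h, ← hgval, Matrix.mul_assoc, hgg, Matrix.mul_one]
  refine ⟨g, ?_, ?_, ?_⟩
  · rw [mem_gu_iff]
    intro u v
    rw [hgval, Matrix.smul_mulVec, Matrix.smul_mulVec, h_smul_left, h_smul_right hq, frob_apply, hGh]
    have e8 : s * s ^ p = c⁻¹ := by rw [← pow_succ']; exact hs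
    rw [← mul_assoc, e8, ← mul_assoc, inv_mul_cancel₀ hc0, one_mul]
  · rw [← hA]
    apply hfin
    apply hext
    intro x
    rw [← Matrix.mulVec_mulVec, ← Matrix.mulVec_mulVec, Matrix.smul_mulVec, Matrix.smul_mulVec,
      hGv, hGv]
    simp only [Matrix.mulVec_smul, Matrix.mulVec_add, hAe, hAe1, hAe2, Matrix.mulVec_diagonal]
    simp [smul_smul]
    module
  · rw [← hB]
    apply hfin
    apply hext
    intro x
    have hCx : (!![0, 0, 1; 1, 0, 0; 0, 1, 0] : Matrix (Fin 3) (Fin 3) F) *ᵥ x = ![x 2, x 0, x 1] := by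
      ext i
      fin_cases i <;> simp [Matrix.mulVec, dotProduct, Fin.sum_univ_three]
    rw [← Matrix.mulVec_mulVec, ← Matrix.mulVec_mulVec, Matrix.smul_mulVec, Matrix.smul_mulVec,
      hCx, hGv, hGv]
    simp only [Matrix.mulVec_smul, Matrix.mulVec_add, ← he1, ← he2, hBe2]
    simp
    module

end Cfsg.Agent.Helper13.U3A2
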