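import Mathlib
import Cfsg.Prelude.Def_GeometricClasses

set_option autoImplicit false
open Cfsg

namespace Cfsg.Agent.Helper13.U3B

variable {F : Type*} [Field F] [Fintype F]

/-- [B3] -/
theorem le_sl (R : Subgroup (GL (Fin 3) F)) (g : GL (Fin 3) F) (ω : F) (hω : ω ≠ 1) (hω3 : ω ^ 3 = 1)
    (hRd : ∀ y : GL (Fin 3) F, y ∈ R ↔ ∃ i j k : ℕ, (y : Matrix (Fin 3) (Fin 3) F) =
      (g : Matrix (Fin 3) (Fin 3) F) * (ω ^ i • (Matrix.diagonal ![1, ω ^ 2, ω] ^ j *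
        !![0, 0, 1; 1, 0, 0; 0, 1, 0] ^ k)) * ((g⁻¹ : GL (Fin 3) F) : Matrix (Fin 3) (Fin 3) F)) :
    R ≤ Cfsg.Geo.specialLinear (Fin 3) F := by
  intro y hy
  obtain ⟨i, j, k, h⟩ := (hRd y).mp hy
  unfold Cfsg.Geo.specialLinear
  rw [MonoidHom.mem_ker]
  apply Units.ext
  rw [Matrix.GeneralLinearGroup.val_det_apply, Units.val_one, h]
  rw [Matrix.det_mul, Matrix.det_mul, Matrix.det_smul, Matrix.det_mul, Matrix.det_pow, Matrix.det_pow]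
  have hg : (g : Matrix (Fin 3) (Fin 3) F).det *
      ((g⁻¹ : GL (Fin 3) F) : Matrix (Fin 3) (Fin 3) F).det = 1 := by
    rw [← Matrix.det_mul, ← Units.val_mul, mul_inv_cancel, Units.val_one, Matrix.det_one]
  have hA : (Matrix.diagonal ![1, ω ^ 2, ω] : Matrix (Fin 3) (Fin 3) F).det = 1 := by
    rw [Matrix.det_diagonal, Fin.prod_univ_three]
    simp
    linear_combination hω3
  have hC : (!![0, 0, 1; 1, 0, 0; 0, 1, 0] : Matrix (Fin 3) (Fin 3) F).det = 1 := by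
    rw [Matrix.det_fin_three]
    simp
  have hi : (ω ^ i) ^ 3 = 1 := by rw [← pow_mul, mul_comm, pow_mul, hω3, one_pow]
  rw [hA, hC, one_pow, one_pow, mul_one, Fintype.card_fin, hi, mul_one, mul_one, hg]

/-- criterion for normalising `R` in terms of the normal form. -/
theorem norm_crit (R : Subgroup (GL (Fin 3) F)) (g : GL (Fin 3) F) (ω : F)
    (hRd : ∀ y : GL (Fin 3) F, y ∈ R ↔ ∃ i j k : ℕ, (y : Matrix (Fin 3) (Fin 3) F) =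
      (g : Matrix (Fin 3) (Fin 3) F) * (ω ^ i • (Matrix.diagonal ![1, ω ^ 2, ω] ^ j *
        !![0, 0, 1; 1, 0, 0; 0, 1, 0] ^ k)) * ((g⁻¹ : GL (Fin 3) F) : Matrix (Fin 3) (Fin 3) F))
    (Au Cu Wu n : GL (Fin 3) F)
    (hAu : (Au : Matrix (Fin 3) (Fin 3) F) = Matrix.diagonal ![1, ω ^ 2, ω])
    (hCu : (Cu : Matrix (Fin 3) (Fin 3) F) = !![0, 0, 1; 1, 0, 0; 0, 1, 0])
    (hWu : (Wu : Matrix (Fin 3) (Fin 3) F) = ω • (1 : Matrix (Fin 3) (Fin 3) F))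
    (hnA : ∃ i j k : ℕ, (n : Matrix (Fin 3) (Fin 3) F) * Matrix.diagonal ![1, ω ^ 2, ω] =
      (ω ^ i • (Matrix.diagonal ![1, ω ^ 2, ω] ^ j * !![0, 0, 1; 1, 0, 0; 0, 1, 0] ^ k)) *
        (n : Matrix (Fin 3) (Fin 3) F))
    (hnC : ∃ i j k : ℕ, (n : Matrix (Fin 3) (Fin 3) F) * !![0, 0, 1; 1, 0, 0; 0, 1, 0] =
      (ω ^ i • (Matrix.diagonal ![1, ω ^ 2, ω] ^ j * !![0, 0, 1; 1, 0, 0; 0, 1, 0] ^ k)) *
        (n : Matrix (Fin 3) (Fin 3) F)) :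
    g * n * g⁻¹ ∈ Cfsg.Geo.subgroupNormalizer R := by
  classical
  have key : ∀ X : GL (Fin 3) F, (∃ i j k : ℕ, (X : Matrix (Fin 3) (Fin 3) F) =
      ω ^ i • (Matrix.diagonal ![1, ω ^ 2, ω] ^ j * !![0, 0, 1; 1, 0, 0; 0, 1, 0] ^ k)) →
      g * X * g⁻¹ ∈ R := by
    rintro X ⟨i, j, k, h⟩
    rw [hRd]
    exact ⟨i, j, k, by rw [Units.val_mul, Units.val_mul, h]⟩
  have hconj : ∀ X : GL (Fin 3) F, (∃ i j k : ℕ, (n : Matrix (Fin 3) (Fin 3) F) *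
      (X : Matrix (Fin 3) (Fin 3) F) =
      (ω ^ i • (Matrix.diagonal ![1, ω ^ 2, ω] ^ j * !![0, 0, 1; 1, 0, 0; 0, 1, 0] ^ k)) *
        (n : Matrix (Fin 3) (Fin 3) F)) → g * (n * X * n⁻¹) * g⁻¹ ∈ R := by
    rintro X ⟨i, j, k, h⟩
    apply key
    refine ⟨i, j, k, ?_⟩
    rw [Units.val_mul, Units.val_mul, h, Matrix.mul_assoc, ← Units.val_mul, mul_inv_cancel,
      Units.val_one, Matrix.mul_one]
  have hA' := hconj Au (by rw [hAu]; exact hnA)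
  have hC' := hconj Cu (by rw [hCu]; exact hnC)
  have hW' : g * (n * Wu * n⁻¹) * g⁻¹ ∈ R := hconj Wu ⟨1, 0, 0, by rw [hWu]; simp⟩
  unfold Cfsg.Geo.subgroupNormalizer
  apply Subgroup.mem_normalizer_fintype
  intro y hy
  obtain ⟨i, j, k, h⟩ := (hRd y).mp hy
  have hy' : y = g * (Wu ^ i * Au ^ j * Cu ^ k) * g⁻¹ := by
    apply Units.ext
    rw [h]
    simp only [Units.val_mul, Units.val_pow_eq_pow_val, hAu, hCu, hWu]
    rw [smul_pow, one_pow, Matrix.smul_mul, Matrix.one_mul, Matrix.smul_mul]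
  have hc : ∀ X : GL (Fin 3) F, g * (n * X * n⁻¹) * g⁻¹ = (g * n) * X * (g * n)⁻¹ := by
    intro X; group
  have e1 : g * n * g⁻¹ * y * (g * n * g⁻¹)⁻¹ = (g * (n * Wu * n⁻¹) * g⁻¹) ^ i *
      (g * (n * Au * n⁻¹) * g⁻¹) ^ j * (g * (n * Cu * n⁻¹) * g⁻¹) ^ k := by
    rw [hy', hc, hc, hc, conj_pow, conj_pow, conj_pow]
    group
  rw [e1]
  exact R.mul_mem (R.mul_mem (R.pow_mem hW' i) (R.pow_mem hA' j)) (R.pow_mem hC' k)

theorem exAu (ω : F) (hω3 : ω ^ 3 = 1) : ∃ Au : GL (Fin 3) F,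
    (Au : Matrix (Fin 3) (Fin 3) F) = Matrix.diagonal ![1, ω ^ 2, ω] := by
  have hd : (Matrix.diagonal ![1, ω ^ 2, ω] : Matrix (Fin 3) (Fin 3) F).det ≠ 0 := by
    rw [Matrix.det_diagonal, Fin.prod_univ_three]
    simp
    intro h
    rw [h] at hω3
    simp at hω3
  exact ⟨Matrix.GeneralLinearGroup.mkOfDetNeZero _ hd, rfl⟩

theorem exCu : ∃ Cu : GL (Fin 3) F,
    (Cu : Matrix (Fin 3) (Fin 3) F) = !![0, 0, 1; 1, 0, 0; 0, 1, 0] := by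
  have hd : (!![0, 0, 1; 1, 0, 0; 0, 1, 0] : Matrix (Fin 3) (Fin 3) F).det ≠ 0 := by
    rw [Matrix.det_fin_three]
    simp
  exact ⟨Matrix.GeneralLinearGroup.mkOfDetNeZero _ hd, rfl⟩

theorem exWu (ω : F) (hω3 : ω ^ 3 = 1) : ∃ Wu : GL (Fin 3) F,
    (Wu : Matrix (Fin 3) (Fin 3) F) = ω • (1 : Matrix (Fin 3) (Fin 3) F) := by
  have hω0 : ω ≠ 0 := by
    rintro rfl
    simp at hω3
  have hd : (ω • (1 : Matrix (Fin 3) (Fin 3) F)).det ≠ 0 := by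
    rw [Matrix.det_smul, Matrix.det_one, mul_one]
    exact pow_ne_zero _ hω0
  exact ⟨Matrix.GeneralLinearGroup.mkOfDetNeZero _ hd, rfl⟩

/-- [B1] -/
theorem nz_T (R : Subgroup (GL (Fin 3) F)) (g : GL (Fin 3) F) (ω : F) (hω : ω ≠ 1) (hω3 : ω ^ 3 = 1)
    (hRd : ∀ y : GL (Fin 3) F, y ∈ R ↔ ∃ i j k : ℕ, (y : Matrix (Fin 3) (Fin 3) F) =
      (g : Matrix (Fin 3) (Fin 3) F) * (ω ^ i • (Matrix.diagonal ![1, ω ^ 2, ω] ^ j *
        !![0, 0, 1; 1, 0, 0; 0, 1, 0] ^ k)) * ((g⁻¹ : GL (Fin 3) F) : Matrix (Fin 3) (Fin 3) F))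
    (T : GL (Fin 3) F) (hT : (T : Matrix (Fin 3) (Fin 3) F) = !![-1, 0, 0; 0, 0, -1; 0, -1, 0]) :
    g * T * g⁻¹ ∈ Cfsg.Geo.subgroupNormalizer R := by
  obtain ⟨Au, hAu⟩ := exAu ω hω3
  obtain ⟨Cu, hCu⟩ := exCu (F := F)
  obtain ⟨Wu, hWu⟩ := exWu ω hω3
  have hω4 : ω ^ 4 = ω := by linear_combination ω * hω3
  refine norm_crit R g ω hRd Au Cu Wu T hAu hCu hWu ⟨0, 2, 0, ?_⟩ ⟨0, 0, 2, ?_⟩
  · rw [hT, Matrix.diagonal_pow]
    ext r c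
    fin_cases r <;> fin_cases c <;>
      simp [Matrix.mul_apply, Fin.sum_univ_three, Matrix.diagonal] <;> linear_combination (-1 : F) * hω4
  · rw [hT]
    ext r c
    fin_cases r <;> fin_cases c <;>
      simp [Matrix.mul_apply, Fin.sum_univ_three, pow_two]

/-- [B2] -/
theorem nz_D (R : Subgroup (GL (Fin 3) F)) (g : GL (Fin 3) F) (ω : F) (hω : ω ≠ 1) (hω3 : ω ^ 3 = 1)
    (hRd : ∀ y : GL (Fin 3) F, y ∈ R ↔ ∃ i j k : ℕ, (y : Matrix (Fin 3) (Fin 3) F) =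
      (g : Matrix (Fin 3) (Fin 3) F) * (ω ^ i • (Matrix.diagonal ![1, ω ^ 2, ω] ^ j *
        !![0, 0, 1; 1, 0, 0; 0, 1, 0] ^ k)) * ((g⁻¹ : GL (Fin 3) F) : Matrix (Fin 3) (Fin 3) F))
    (D : GL (Fin 3) F) (d : Fin 3 → F) (hD : (D : Matrix (Fin 3) (Fin 3) F) = Matrix.diagonal d)
    (h01 : d 0 ^ 3 = d 1 ^ 3) (h12 : d 1 ^ 3 = d 2 ^ 3) :
    g * D * g⁻¹ ∈ Cfsg.Geo.subgroupNormalizer R := by
  obtain ⟨Au, hAu⟩ := exAu ω hω3
  obtain ⟨Cu, hCu⟩ := exCu (F := F)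
  obtain ⟨Wu, hWu⟩ := exWu ω hω3
  have hsum : 1 + ω + ω ^ 2 = 0 := by
    have h1 : (ω - 1) * (1 + ω + ω ^ 2) = 0 := by linear_combination hω3
    rcases mul_eq_zero.mp h1 with h | h
    · exact absurd (sub_eq_zero.mp h) hω
    · exact h
  have hcube : ∀ x y : F, x ^ 3 = y ^ 3 → ∃ i : ℕ, x = ω ^ i * y := by
    intro x y h
    have h1 : (x - y) * ((x - ω * y) * (x - ω ^ 2 * y)) = 0 := by
      linear_combination h - x ^ 2 * y * hsum + x * y ^ 2 * hsum + (x * y ^ 2 - y ^ 3) * hω3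
    rcases mul_eq_zero.mp h1 with h2 | h2
    · exact ⟨0, by rw [pow_zero, one_mul]; exact sub_eq_zero.mp h2⟩
    · rcases mul_eq_zero.mp h2 with h3 | h3
      · exact ⟨1, by rw [pow_one]; exact sub_eq_zero.mp h3⟩
      · exact ⟨2, sub_eq_zero.mp h3⟩
  obtain ⟨i, hi⟩ := hcube (d 0) (d 2) (h01.trans h12)
  obtain ⟨m, hm⟩ := hcube (d 1) (d 0) h01.symm
  have f1 : d 0 = ω ^ i * d 2 := hi
  have f2 : d 1 = ω ^ i * ((ω ^ 2) ^ (2 * m + i) * d 0) := by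
    have e1 : ω ^ i * (ω ^ 2) ^ (2 * m + i) = ω ^ m := by
      rw [← pow_mul, ← pow_add, show i + 2 * (2 * m + i) = 3 * (i + m) + m by ring, pow_add, pow_mul,
        hω3, one_pow, one_mul]
    rw [← mul_assoc, e1]
    exact hm
  have f3 : d 2 = ω ^ i * (ω ^ (2 * m + i) * d 1) := by
    rw [hm, hi]
    have e1 : ω ^ i * (ω ^ (2 * m + i) * (ω ^ m * (ω ^ i * d 2))) = ω ^ (3 * (i + m)) * d 2 := by
      ring
    rw [e1, pow_mul, hω3, one_pow, one_mul]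
  refine norm_crit R g ω hRd Au Cu Wu D hAu hCu hWu ⟨0, 1, 0, ?_⟩ ⟨i, 2 * m + i, 1, ?_⟩
  · rw [hD]
    simp [Matrix.diagonal_mul_diagonal, mul_comm]
  · rw [hD, Matrix.diagonal_pow, pow_one]
    ext r c
    fin_cases r <;> fin_cases c <;>
      simp [Matrix.mul_apply, Fin.sum_univ_three, Matrix.diagonal] <;>
      first | linear_combination f1 | linear_combination f2 | linear_combination f3

end Cfsg.Agent.Helper13.U3B
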